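import Cfsg.Statements.S3381

set_option autoImplicit false
open Cfsg

namespace Cfsg.Agent.S3381

section
variable {q : ℕ} [Fact q.Prime] {V : Type*} [AddCommGroup V] [Module (ZMod q) V]
    {G : Type*} [Group G] (ρ : G →* (V ≃ₗ[ZMod q] V))

theorem uniq (hstab : ∀ v : V, v ≠ 0 → Nat.card {g : G // ρ g v = v} = 2)
    {v : V} (hv : v ≠ 0) {s t : G} (hs : s ≠ 1) (ht : t ≠ 1) (hsv : ρ s v = v) (htv : ρ t v = v) :
    s = t := by
  obtain ⟨y, -, hy⟩ := (Nat.card_eq_two_iff' (⟨1, by simp⟩ : {g : G // ρ g v = v})).1 (hstab v hv)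
  have h1 := hy ⟨s, hsv⟩ (by simpa using hs)
  have h2 := hy ⟨t, htv⟩ (by simpa using ht)
  simpa using congrArg Subtype.val (h1.trans h2.symm)

theorem ex (hstab : ∀ v : V, v ≠ 0 → Nat.card {g : G // ρ g v = v} = 2)
    {v : V} (hv : v ≠ 0) : ∃ t : G, orderOf t = 2 ∧ ρ t v = v := by
  obtain ⟨⟨t, htv⟩, ht, -⟩ :=
    (Nat.card_eq_two_iff' (⟨1, by simp⟩ : {g : G // ρ g v = v})).1 (hstab v hv)
  have ht1 : t ≠ 1 := by simpa using ht
  refine ⟨t, ?_, htv⟩
  apply orderOf_eq_prime _ ht1
  by_contra h
  have := uniq ρ hstab hv h ht1 (by rw [pow_two, map_mul, LinearEquiv.mul_apply, htv, htv]) htv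
  rw [pow_two] at this
  exact ht1 (by simpa using this)

theorem ne_one_of {t : G} (ht : orderOf t = 2) : t ≠ 1 := by
  rintro rfl; simp at ht

theorem sq_of {t : G} (ht : orderOf t = 2) : t * t = 1 := by
  rw [← pow_two, ← ht, pow_orderOf_eq_one]

theorem central_nofix (hρ : Function.Injective ρ)
    (hstab : ∀ v : V, v ≠ 0 → Nat.card {g : G // ρ g v = v} = 2)
    {z : G} (hz : orderOf z = 2) (hzc : z ∈ Subgroup.center G) {u : V} (hu : ρ z u = u) : u = 0 := by
  by_contra hu0
  have hzz : ∀ v, ρ z (ρ z v) = v := fun v => by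
    rw [← LinearEquiv.mul_apply, ← map_mul, sq_of hz]; simp
  have key : ∀ v, ρ z v ≠ v → ρ z v = -v := by
    intro v hv
    have hv0 : v ≠ 0 := by rintro rfl; simp at hv
    obtain ⟨t, ht, htv⟩ := ex ρ hstab hv0
    have hcomm : t * z = z * t := Subgroup.mem_center_iff.1 hzc t
    have h1 : ρ t (ρ z v) = ρ z v := by
      rw [← LinearEquiv.mul_apply, ← map_mul, hcomm, map_mul, LinearEquiv.mul_apply, htv]
    by_contra hne
    have h2 : v + ρ z v ≠ 0 := fun h => hne (eq_neg_of_add_eq_zero_right h)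
    have := uniq ρ hstab h2 (ne_one_of ht) (ne_one_of hz) (by rw [map_add, htv, h1])
      (by rw [map_add, hzz, add_comm])
    exact hv (this ▸ htv)
  have : ∃ v, ρ z v ≠ v := by
    by_contra h
    push Not at h
    exact ne_one_of hz (hρ (by rw [map_one]; ext v; simpa using h v))
  obtain ⟨v, hv⟩ := this
  have h1 := key v hv
  have h2 := key (u + v) (by rw [map_add, hu]; simpa using hv)
  rw [map_add, hu, h1] at h2
  have h3 : (2 : ZMod q) • u = 0 := by
    rw [two_smul]
    have : u + u = (u + -v) - (-(u + v)) := by abel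
    rw [this, h2, sub_self]
  have h4 : (2 : ZMod q) = 0 := by
    rcases smul_eq_zero.1 h3 with h | h
    · exact h
    · exact absurd h hu0
  apply hv
  rw [h1, neg_eq_iff_add_eq_zero, ← two_smul (ZMod q), h4, zero_smul]

theorem central_neg (hρ : Function.Injective ρ)
    (hstab : ∀ v : V, v ≠ 0 → Nat.card {g : G // ρ g v = v} = 2)
    {z : G} (hz : orderOf z = 2) (hzc : z ∈ Subgroup.center G) (v : V) : ρ z v = -v := by
  have hzz : ∀ v, ρ z (ρ z v) = v := fun v => by
    rw [← LinearEquiv.mul_apply, ← map_mul, sq_of hz]; simp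
  have := central_nofix ρ hρ hstab hz hzc (u := v + ρ z v) (by rw [map_add, hzz, add_comm])
  exact eq_neg_of_add_eq_zero_right this

/-- the fixed space -/
def fx (t : G) : Submodule (ZMod q) V where
  carrier := {v | ρ t v = v}
  add_mem' := by intro a b ha hb; simp only [Set.mem_setOf_eq] at *; rw [map_add, ha, hb]
  zero_mem' := by simp
  smul_mem' := by intro c a ha; simp only [Set.mem_setOf_eq] at *; rw [map_smul, ha]

theorem mem_fx {t : G} {v : V} : v ∈ fx ρ t ↔ ρ t v = v := Iff.rfl

end

/-- Let G be a finite group acting faithfully and linearly on a non-trivial finite vector space V over the field with q elements (q prime) so that every non-zero vector has a stabilizer of order 2, and suppose G has a central involution. Then V has q^(2r) elements for some r and G contains exactly q^r + 1 non-central involutions. -/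
theorem result
    (q : ℕ) [Fact q.Prime] {V : Type*} [AddCommGroup V] [Module (ZMod q) V] [Finite V] [Nontrivial V]
    {G : Type*} [Group G] [Finite G] (ρ : G →* (V ≃ₗ[ZMod q] V)) (hρ : Function.Injective ρ)
    (hstab : ∀ v : V, v ≠ 0 → Nat.card {g : G // ρ g v = v} = 2)
    (z : G) (hz : orderOf z = 2) (hzc : z ∈ Subgroup.center G) :
    ∃ r : ℕ, Nat.card V = q ^ (2 * r) ∧
      Nat.card {g : G // orderOf g = 2 ∧ g ∉ Subgroup.center G} = q ^ r + 1 := by
  classical
  have hneg := central_neg ρ hρ hstab hz hzc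
  haveI : Module.Finite (ZMod q) V := Module.Finite.of_finite
  have h2 : (2 : ZMod q) ≠ 0 := by
    intro h
    apply ne_one_of hz
    apply hρ
    rw [map_one]; ext v
    rw [hneg, LinearEquiv.coe_one, id, neg_eq_iff_add_eq_zero, ← two_smul (ZMod q), h, zero_smul]
  set I : G → Prop := fun g => orderOf g = 2 ∧ g ∉ Subgroup.center G with hI
  have exI : ∀ v : V, v ≠ 0 → ∃ t, I t ∧ ρ t v = v := by
    intro v hv
    obtain ⟨t, ht, htv⟩ := ex ρ hstab hv
    exact ⟨t, ⟨ht, fun hc => hv (central_nofix ρ hρ hstab ht hc htv)⟩, htv⟩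
  have hzz : ∀ t, z * (z * t) = t := fun t => by rw [← mul_assoc, sq_of hz, one_mul]
  have zI : ∀ t, I t → I (z * t) := by
    rintro t ⟨ht, htc⟩
    have hcomm : t * z = z * t := Subgroup.mem_center_iff.1 hzc t
    have hc : z * t ∉ Subgroup.center G := fun h => htc (by
      have := Subgroup.mul_mem _ hzc h
      rwa [hzz] at this)
    refine ⟨?_, hc⟩
    apply orderOf_eq_prime
    · rw [pow_two, mul_assoc, ← mul_assoc t, hcomm, mul_assoc, sq_of ht, mul_one, sq_of hz]
    · intro h; exact hc (h ▸ Subgroup.one_mem _)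
  have disj : ∀ s t, I s → I t → s ≠ t → fx ρ s ⊓ fx ρ t = ⊥ := by
    intro s t hs ht hst
    rw [eq_bot_iff]
    rintro v ⟨h1, h2⟩
    by_contra hv
    exact hst (uniq ρ hstab hv (ne_one_of hs.1) (ne_one_of ht.1) h1 h2)
  have hzt : ∀ t, t ≠ z * t := fun t h => ne_one_of hz (by simpa using h)
  have hzapp : ∀ t v, ρ (z * t) v = - ρ t v := fun t v => by
    rw [map_mul, LinearEquiv.mul_apply, hneg]
  have htop : ∀ t, I t → fx ρ t ⊔ fx ρ (z * t) = ⊤ := by
    intro t ht
    have htt : ∀ v, ρ t (ρ t v) = v := fun v => by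
      rw [← LinearEquiv.mul_apply, ← map_mul, sq_of ht.1]; simp
    rw [eq_top_iff]
    intro v _
    have : v = (2 : ZMod q)⁻¹ • (v + ρ t v) + (2 : ZMod q)⁻¹ • (v - ρ t v) := by
      rw [← smul_add]
      have : v + ρ t v + (v - ρ t v) = (2 : ZMod q) • v := by rw [two_smul]; abel
      rw [this, smul_smul, inv_mul_cancel₀ h2, one_smul]
    rw [this]
    apply Submodule.add_mem_sup
    · apply Submodule.smul_mem
      rw [mem_fx, map_add, htt, add_comm]
    · apply Submodule.smul_mem
      rw [mem_fx, hzapp, map_sub, htt, neg_sub]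
  set n := Module.finrank (ZMod q) V with hn
  set d : G → ℕ := fun t => Module.finrank (ZMod q) (fx ρ t) with hd
  have dle : ∀ s t, I s → I t → s ≠ t → d s + d t ≤ n := by
    intro s t hs ht hst
    have := Submodule.finrank_sup_add_finrank_inf_eq (fx ρ s) (fx ρ t)
    rw [disj s t hs ht hst, finrank_bot, add_zero] at this
    simp only [hd]
    rw [← this]
    exact Submodule.finrank_le _
  have deq : ∀ t, I t → d t + d (z * t) = n := by
    intro t ht
    have := Submodule.finrank_sup_add_finrank_inf_eq (fx ρ t) (fx ρ (z * t))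
    rw [disj _ _ ht (zI t ht) (hzt t), finrank_bot, add_zero, htop t ht, finrank_top] at this
    exact this.symm
  have nebot : ∀ t, I t → fx ρ t ≠ ⊥ := by
    intro t ht h
    have h1 := htop t ht
    rw [h, bot_sup_eq] at h1
    apply ne_one_of (zI t ht).1
    apply hρ
    rw [map_one]; ext v
    have : v ∈ fx ρ (z * t) := h1 ▸ Submodule.mem_top
    simpa using (mem_fx ρ).1 this
  have half : ∀ t, I t → 2 * d t ≤ n := by
    intro t ht
    obtain ⟨u, hu, hu0⟩ := Submodule.exists_mem_ne_zero_of_ne_bot (nebot t ht)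
    obtain ⟨w, hw, hw0⟩ := Submodule.exists_mem_ne_zero_of_ne_bot (nebot _ (zI t ht))
    have hd0 := disj _ _ ht (zI t ht) (hzt t)
    have hw1 : w ∉ fx ρ t := fun h => hw0 (by
      have : w ∈ fx ρ t ⊓ fx ρ (z * t) := ⟨h, hw⟩
      rwa [hd0] at this)
    have hu1 : u ∉ fx ρ (z * t) := fun h => hu0 (by
      have : u ∈ fx ρ t ⊓ fx ρ (z * t) := ⟨hu, h⟩
      rwa [hd0] at this)
    have huw : u + w ≠ 0 := fun h => hw1 (by
      rw [eq_neg_of_add_eq_zero_right h]; exact Submodule.neg_mem _ hu)
    obtain ⟨s, hs, hsv⟩ := exI _ huw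
    have hst : s ≠ t := by
      rintro rfl
      exact hw1 ((Submodule.add_mem_iff_right _ hu).1 hsv)
    have hst' : z * s ≠ t := by
      rintro rfl
      rw [hzz] at hu1 hw
      exact hu1 ((Submodule.add_mem_iff_left _ hw).1 hsv)
    have := dle s t hs ht hst
    have := dle _ t (zI s hs) ht hst'
    have := deq s hs
    omega
  have half' : ∀ t, I t → 2 * d t = n := by
    intro t ht
    have := half t ht
    have := half _ (zI t ht)
    have := deq t ht
    omega
  obtain ⟨v0, hv0⟩ := exists_ne (0 : V)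
  obtain ⟨t0, ht0, -⟩ := exI v0 hv0
  set r := d t0 with hr
  have hnr : n = 2 * r := (half' t0 ht0).symm
  have hcardV : Nat.card V = q ^ (2 * r) := by
    rw [Module.natCard_eq_pow_finrank (K := ZMod q), Nat.card_zmod, ← hn, hnr]
  refine ⟨r, hcardV, ?_⟩
  have hcardfx : ∀ t, I t → Nat.card (fx ρ t) = q ^ r := by
    intro t ht
    rw [Module.natCard_eq_pow_finrank (K := ZMod q), Nat.card_zmod]
    congr 1
    have := half' t ht
    simp only [hd] at this
    omega
  haveI := Fintype.ofFinite V
  haveI := Fintype.ofFinite G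
  have hcount : (Finset.univ.erase (0 : V)) =
      (Finset.univ.filter I).biUnion (fun t => (Finset.univ.filter (· ∈ fx ρ t)).erase 0) := by
    ext v
    simp only [Finset.mem_erase, Finset.mem_univ, and_true, Finset.mem_biUnion, Finset.mem_filter,
      true_and]
    constructor
    · intro hv
      obtain ⟨t, ht, htv⟩ := exI v hv
      exact ⟨t, ht, hv, htv⟩
    · rintro ⟨t, -, hv, -⟩; exact hv
  have hc := congrArg Finset.card hcount
  rw [Finset.card_biUnion, Finset.card_erase_of_mem (Finset.mem_univ _), Finset.card_univ,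
    ← Nat.card_eq_fintype_card, hcardV,
    Finset.sum_congr rfl (g := fun _ => q ^ r - 1), Finset.sum_const, smul_eq_mul] at hc
  · have hN : Nat.card {g : G // I g} = (Finset.univ.filter I).card := by
      rw [Nat.card_eq_fintype_card, Fintype.card_subtype]
    rw [hN]
    have hq1 : 1 < q := (Fact.out : q.Prime).one_lt
    have hr0 : 0 < r := by
      have : 0 < n := Module.finrank_pos
      omega
    have hqr : 1 < q ^ r := Nat.one_lt_pow hr0.ne' hq1
    have : q ^ (2 * r) - 1 = (q ^ r + 1) * (q ^ r - 1) := by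
      rw [mul_comm 2 r, pow_mul, ← Nat.sq_sub_sq]
    rw [this] at hc
    exact (Nat.eq_of_mul_eq_mul_right (by omega) hc).symm
  · intro t ht
    rw [Finset.card_erase_of_mem (by simp), ← hcardfx t (Finset.mem_filter.1 ht).2,
      Nat.card_eq_fintype_card, Fintype.card_subtype]
  · intro s hs t ht hst
    rw [Function.onFun, Finset.disjoint_left]
    intro v h1 h2
    simp only [Finset.mem_erase, Finset.mem_filter, Finset.mem_univ, true_and] at h1 h2
    have : v ∈ fx ρ s ⊓ fx ρ t := ⟨h1.2, h2.2⟩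
    rw [disj s t (Finset.mem_filter.1 hs).2 (Finset.mem_filter.1 ht).2 hst] at this
    exact h1.1 this

end Cfsg.Agent.S3381
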