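import Cfsg.Statements.S0313
import Cfsg.Agent.BN.Basic

set_option autoImplicit false
open Cfsg

namespace Cfsg.Agent.S0313

/-- Two standard parabolic subgroups of a group with a (B,N)-pair which are conjugate in `G` coincide. -/
theorem result {G : Type*} [Group G] (P : Cfsg.BNPair G) {J K : Set G}
    (hJ : J ⊆ P.S) (hK : K ⊆ P.S) (g : G)
    (h : (P.parabolic J).map (MulAut.conj g).toMonoidHom = P.parabolic K) :
    P.parabolic J = P.parabolic K := by
  have hg : g ∈ P.parabolic K := by
    refine BN.mem_of_conj P _ (BN.B_le_parabolic P K) g fun b hb => ?_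
    rw [← h]
    exact ⟨b, BN.B_le_parabolic P J hb, rfl⟩
  ext x
  have h1 : x ∈ P.parabolic J ↔ g * x * g⁻¹ ∈ P.parabolic K := by
    rw [← h]
    constructor
    · intro hx
      exact ⟨x, hx, rfl⟩
    · rintro ⟨y, hy, hyx⟩
      have : y = x := (MulAut.conj g).injective hyx
      exact this ▸ hy
  rw [h1, Subgroup.mul_mem_cancel_right _ (Subgroup.inv_mem _ hg), Subgroup.mul_mem_cancel_left _ hg]

end Cfsg.Agent.S0313
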