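import Cfsg.Statements.S0316
import Cfsg.Agent.BN.Basic

set_option autoImplicit false
open Cfsg

namespace Cfsg.Agent.S0316

/-- The map `J ↦ P_J` is a lattice isomorphism from the power set of the set of distinguished generators onto the
subgroups containing `B`. -/
theorem result {G : Type*} [Group G] (P : Cfsg.BNPair G) :
    ∃ e : Set P.S ≃o {M : Subgroup G // P.B ≤ M},
      ∀ J : Set P.S, ((e J : {M : Subgroup G // P.B ≤ M}) : Subgroup G) = P.parabolic (Subtype.val '' J) := by
  have hsub : ∀ J : Set P.S, Subtype.val '' J ⊆ P.S := fun J => Subtype.coe_image_subset _ _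
  refine ⟨{ toFun := fun J => ⟨P.parabolic (Subtype.val '' J), BN.B_le_parabolic P _⟩
            invFun := fun M => {s | (s : G) ∈ M.1}
            left_inv := ?_
            right_inv := ?_
            map_rel_iff' := ?_ }, fun J => rfl⟩
  · intro J
    ext s
    change (s : G) ∈ P.parabolic (Subtype.val '' J) ↔ _
    rw [BN.simple_mem_parabolic_iff P (hsub J) s.2]
    simp
  · intro M
    apply Subtype.ext
    change P.parabolic _ = M.1
    conv_rhs => rw [BN.eq_parabolic P M.1 M.2]
    congr 1
    ext s
    constructor
    · rintro ⟨t, ht, rfl⟩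
      exact ⟨t.2, ht⟩
    · rintro ⟨h1, h2⟩
      exact ⟨⟨s, h1⟩, h2, rfl⟩
  · intro J K
    change P.parabolic (Subtype.val '' J) ≤ P.parabolic (Subtype.val '' K) ↔ _
    constructor
    · intro h s hs
      have := h (BN.subset_parabolic P _ ⟨s, hs, rfl⟩)
      rw [BN.simple_mem_parabolic_iff P (hsub K) s.2] at this
      simpa using this
    · intro h
      exact BN.parabolic_mono P (Set.image_mono h)

end Cfsg.Agent.S0316
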