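import Cfsg.Statements.S0321
import Cfsg.Agent.BN.Basic

set_option autoImplicit false
open Cfsg

namespace Cfsg.Agent.S0321

/-- For `n ∈ N` not in `B`, the union `B ∪ B n B` is (the underlying set of) a subgroup exactly when `n` agrees
modulo `B ⊓ N` with one of the distinguished representatives; thus the distinguished involutions are
determined by `B` and `N`. -/
theorem result {G : Type*} [Group G] (P : Cfsg.BNPair G) {n : G}
    (hn : n ∈ P.N) (hnB : n ∉ P.B) :
    (∃ H : Subgroup G, (H : Set G) = (P.B : Set G) ∪ DoubleCoset.doubleCoset n (P.B : Set G) P.B) ↔ ∃ s ∈ P.S, s⁻¹ * n ∈ P.B := by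
  constructor
  · rintro ⟨H, hH⟩
    have hB : P.B ≤ H := fun b hb => by
      rw [← SetLike.mem_coe, hH]; exact Or.inl hb
    have hnH : n ∈ H := by
      rw [← SetLike.mem_coe, hH]; exact Or.inr (DoubleCoset.mem_doubleCoset_self _ _ _)
    rcases (P.S ∩ (H : Set G)).eq_empty_or_nonempty with h | ⟨s, hs, hsH⟩
    · rw [BN.eq_parabolic P H hB, h] at hnH
      simp only [BNPair.parabolic, Subgroup.closure_empty, sup_bot_eq] at hnH
      exact absurd hnH hnB
    · rw [hH] at hsH
      rcases hsH with h | h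
      · exact absurd h (BN.simple_not_mem P hs)
      · exact ⟨s, hs, (BN.ρ_eq_iff P ⟨s, P.subset hs⟩ ⟨n, hn⟩).1
          (BN.ρ_eq_of_R P ((BN.mem_dc_iff P _ _).1 h))⟩
  · rintro ⟨s, hs, hsn⟩
    have hR : BN.R P s n := BN.R_of_ρ_eq P ((BN.ρ_eq_iff P ⟨s, P.subset hs⟩ ⟨n, hn⟩).2 hsn)
    refine ⟨P.parabolic {s}, ?_⟩
    ext g
    rw [Set.mem_union, BN.mem_dc_iff, SetLike.mem_coe, SetLike.mem_coe]
    constructor
    · intro hg
      obtain ⟨l, hl, hw⟩ := BN.exists_word_of_mem_parabolic P (Set.singleton_subset_iff.2 hs) hg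
      have key : ∀ l : List P.S, (∀ t ∈ l, (t : G) ∈ ({s} : Set G)) →
          BN.wp (BN.σ P) l = 1 ∨ BN.wp (BN.σ P) l = BN.σ P ⟨s, hs⟩ := by
        intro l
        induction l with
        | nil => simp
        | cons t l ih =>
          intro hl
          have ht : t = ⟨s, hs⟩ := Subtype.ext (hl t (by simp))
          rcases ih (fun u hu => hl u (by simp [hu])) with h | h
          · right; rw [BN.wp_cons, h, ht, mul_one]
          · left; rw [BN.wp_cons, h, ht, (BN.involGen P).sq]
      rcases key l hl with h | h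
      · left; rw [← BN.ω_eq_one_iff, ← hw, h]
      · right
        exact ((BN.ω_eq_σ_iff P g ⟨s, hs⟩).1 (by rw [← hw, h])).trans hR
    · rintro (h | h)
      · exact BN.B_le_parabolic P _ h
      · exact ((h.trans hR.symm).mem_iff (BN.B_le_parabolic P _)).2 (BN.subset_parabolic P _ rfl)

end Cfsg.Agent.S0321
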