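import Cfsg.Statements.S0323


set_option autoImplicit false
open scoped Pointwise
open Cfsg

namespace Cfsg.Agent.S0323

/-- A doubly transitive action on a set with at least three points yields a (B,N)-pair of rank one:
`B` is the stabiliser of a point `x`, `N` the setwise stabiliser of a pair `{x, y}`. -/
theorem result {G Ω : Type*} [Group G] [MulAction G Ω]
    (h2 : MulAction.IsMultiplyPretransitive G Ω 2) {x y z : Ω} (hxy : x ≠ y) (hyz : y ≠ z) (hxz : x ≠ z) :
    ∃ P : Cfsg.BNPair G, P.B = MulAction.stabilizer G x ∧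
      P.N = MulAction.stabilizer G ({x, y} : Set Ω) ∧ P.rank = 1 := by
  rw [MulAction.is_two_pretransitive_iff] at h2
  obtain ⟨s, hsx, hsy⟩ := h2 hxy hxy.symm
  have hN : ∀ n : G, n ∈ MulAction.stabilizer G ({x, y} : Set Ω) ↔
      (n • x = x ∧ n • y = y) ∨ (n • x = y ∧ n • y = x) := by
    intro n
    rw [MulAction.mem_stabilizer_iff, Set.smul_set_insert, Set.smul_set_singleton,
      Set.pair_eq_pair_iff]
  have hsN : s ∈ MulAction.stabilizer G ({x, y} : Set Ω) := (hN s).2 (Or.inr ⟨hsx, hsy⟩)
  have key : ∀ g h : G, (g • x = x ↔ h • x = x) → g ∈ DoubleCoset.doubleCoset h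
      (MulAction.stabilizer G x : Set G) (MulAction.stabilizer G x) := by
    intro g h hgh
    rw [DoubleCoset.mem_doubleCoset]
    by_cases hg : g • x = x
    · refine ⟨g * h⁻¹, ?_, 1, Subgroup.one_mem _, by group⟩
      exact Subgroup.mul_mem _ hg (Subgroup.inv_mem _ (hgh.1 hg))
    · obtain ⟨b, hb1, hb2⟩ := h2 (a := x) (b := h • x) (c := x) (d := g • x)
        (fun e => hg (hgh.2 e.symm)) (fun e => hg e.symm)
      refine ⟨b, hb1, h⁻¹ * b⁻¹ * g, ?_, by group⟩
      change (h⁻¹ * b⁻¹ * g) • x = x
      rw [mul_smul, mul_smul, ← hb2, inv_smul_smul, inv_smul_smul]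
  refine ⟨{ B := MulAction.stabilizer G x
            N := MulAction.stabilizer G ({x, y} : Set Ω)
            S := {s}
            sup_eq_top := ?_
            conj_mem := ?_
            subset := Set.singleton_subset_iff.2 hsN
            sq_mem := ?_
            inj := ?_
            closure_sup := ?_
            mul_mem_union := ?_
            conj_ne := ?_ }, rfl, rfl, ?_⟩
  · rw [eq_top_iff]
    intro g _
    by_cases hg : g • x = x
    · exact Subgroup.mem_sup_left hg
    · obtain ⟨b, hb, c, hc, rfl⟩ := DoubleCoset.mem_doubleCoset.1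
        (key g s ⟨fun h => absurd h hg, fun h => absurd (h.symm.trans hsx) hxy⟩)
      exact Subgroup.mul_mem _ (Subgroup.mul_mem _ (Subgroup.mem_sup_left hb)
        (Subgroup.mem_sup_right hsN)) (Subgroup.mem_sup_left hc)
  · rintro n hn t ⟨ht1, ht2⟩
    have ht1' : t • x = x := ht1
    have ht3 : t • y = y := by
      rcases (hN t).1 ht2 with h | h
      · exact h.2
      · exact absurd (ht1'.symm.trans h.1) hxy
    change (n * t * n⁻¹) • x = x
    rw [mul_smul, mul_smul]
    rcases (hN n⁻¹).1 (Subgroup.inv_mem _ hn) with h | h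
    · rw [h.1, ht1', ← h.1, smul_inv_smul, h.1]
    · rw [h.1, ht3, ← h.1, smul_inv_smul]
  · rintro _ rfl
    change (_ * _) • x = x
    rw [mul_smul, hsx, hsy]
  · rintro _ rfl _ rfl _
    rfl
  · apply le_antisymm
    · exact sup_le ((Subgroup.closure_le _).2 (Set.singleton_subset_iff.2 hsN)) inf_le_right
    · intro n hn
      rcases (hN n).1 hn with h | h
      · exact Subgroup.mem_sup_right ⟨h.1, hn⟩
      · have : n = s * (s⁻¹ * n) := by group
        rw [this]
        refine Subgroup.mul_mem _ (Subgroup.mem_sup_left (Subgroup.subset_closure rfl))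
          (Subgroup.mem_sup_right ⟨?_, Subgroup.mul_mem _ (Subgroup.inv_mem _ hsN) hn⟩)
        change (s⁻¹ * n) • x = x
        rw [mul_smul, h.1, ← hsx, inv_smul_smul]
  · rintro s' rfl n hn b hb
    have hb' : b • x = x := hb
    rcases (hN n).1 hn with h | h
    · left
      apply key
      rw [mul_smul, mul_smul, mul_smul, h.1, hb']
    · by_cases h1 : (s' * b * n) • x = x
      · left
        apply key
        rw [h1, mul_smul, h.1, hsy]
      · right
        apply key
        rw [h.1]
        exact ⟨fun h => absurd h h1, fun h => absurd h.symm hxy⟩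
  · rintro s' rfl h
    obtain ⟨b, hb1, hb2⟩ := h2 hxy hxz
    have : s' * b * s' ∈ (MulAction.stabilizer G x : Set G) := by
      rw [← h]
      exact ⟨b, hb1, rfl⟩
    change (s' * b * s') • x = x at this
    rw [mul_smul, mul_smul, hsx, hb2, ← hsy] at this
    exact hyz (MulAction.injective s' this).symm
  · simp [BNPair.rank]

end Cfsg.Agent.S0323
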