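import Cfsg.Statements.S0326
import Cfsg.Agent.Suzuki.Basic

set_option autoImplicit false
open Cfsg

namespace Cfsg.Agent.S0326

/-- The Suzuki–Tits ovoid over a finite field with `q` elements has `q² + 1` points. -/
theorem result {F : Type*} [Field F] [Fintype F] (m : ℕ) :
    Nat.card (Cfsg.suzukiOvoid F m) = Fintype.card F ^ 2 + 1 := by
  let f : Option (F × F) → Cfsg.suzukiOvoid F m := fun o => o.elim
    ⟨Cfsg.suzukiPointInfinity F, _, _, rfl, Or.inl rfl⟩ fun p =>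
      ⟨Projectivization.mk F ![p.1 * p.2 + p.1 ^ (2 ^ (m + 1) + 2) + p.2 ^ (2 ^ (m + 1)), p.2, p.1, 1]
        (Suzuki.vec_ne_zero _ _ _), _, _, rfl, Or.inr ⟨p.1, p.2, rfl⟩⟩
  have hf : Function.Bijective f := by
    constructor
    · rintro (_ | ⟨x, y⟩) (_ | ⟨x', y'⟩) h
      · rfl
      · exact absurd (congrArg Subtype.val h).symm (Suzuki.mk_vec_ne_inf _ _ _)
      · exact absurd (congrArg Subtype.val h) (Suzuki.mk_vec_ne_inf _ _ _)
      · obtain ⟨-, h1, h2⟩ := Suzuki.mk_vec_inj (congrArg Subtype.val h)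
        simp only at h1 h2
        rw [h1, h2]
    · rintro ⟨p, v, hv, rfl, rfl | ⟨x, y, rfl⟩⟩
      · exact ⟨none, rfl⟩
      · exact ⟨some (x, y), rfl⟩
  rw [← Nat.card_eq_of_bijective f hf]
  simp [pow_two]

end Cfsg.Agent.S0326
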