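import Cfsg.Statements.S0330
import Cfsg.Agent.Suzuki.Simple

set_option autoImplicit false
open Cfsg

namespace Cfsg.Agent.S0330

theorem center_eq_commutator_of_equiv {A B : Type*} [Group A] [Group B] (e : A ≃* B)
    (h : Subgroup.center B = commutator B) : Subgroup.center A = commutator A := by
  have h1 : (commutator A).map e.toMonoidHom = commutator B := by
    rw [map_commutator_eq, MonoidHom.range_eq_top.mpr e.surjective]; rfl
  have h2 : (Subgroup.center A).map e.toMonoidHom = Subgroup.center B := by
    ext y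
    obtain ⟨x, rfl⟩ := e.surjective y
    rw [Subgroup.mem_map]
    constructor
    · rintro ⟨z, hz, hz'⟩
      rw [← hz', Subgroup.mem_center_iff]
      intro g
      obtain ⟨k, rfl⟩ := e.surjective g
      simp only [MulEquiv.toMonoidHom_eq_coe, MonoidHom.coe_coe]
      rw [← map_mul, ← map_mul, Subgroup.mem_center_iff.mp hz k]
    · intro hx
      refine ⟨x, ?_, rfl⟩
      rw [Subgroup.mem_center_iff] at hx ⊢
      intro g
      apply e.injective
      rw [map_mul, map_mul, hx]
  apply Subgroup.map_injective (f := e.toMonoidHom) e.injective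
  rw [h1, h2, h]

/-- A Sylow 2-subgroup `P` of the Suzuki group (field with `q = 2^(2m+1)` elements, `m ≥ 1`) has order `q²` and
exponent `4`; its centre coincides with its commutator subgroup and has order `q`. -/
theorem result {F : Type*} [Field F] [Fintype F] {m : ℕ} (hm : 1 ≤ m)
    (hF : Fintype.card F = 2 ^ (2 * m + 1)) (P : Sylow 2 (Cfsg.Sz F m)) :
    Nat.card P = (2 ^ (2 * m + 1)) ^ 2 ∧ Monoid.exponent P = 4 ∧
      Subgroup.center P = commutator P ∧ Nat.card (Subgroup.center P) = 2 ^ (2 * m + 1) := by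
  have : Suzuki.IsSz F m := ⟨hm, hF⟩
  have e : P ≃* Suzuki.UU F := Sylow.equiv P (Suzuki.UUSylow F)
  refine ⟨?_, ?_, ?_, ?_⟩
  · rw [Nat.card_congr e.toEquiv, Suzuki.card_UU, hF]
  · rw [Monoid.exponent_eq_of_mulEquiv e, Suzuki.exponent_UU]
  · exact center_eq_commutator_of_equiv e (Suzuki.center_UU_eq_commutator F)
  · rw [Nat.card_congr (Subgroup.centerCongr e).toEquiv, Suzuki.card_center_UU, hF]

end Cfsg.Agent.S0330
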