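import Cfsg.Statements.S0335
import Cfsg.Agent.Suzuki.Stabilizer

set_option autoImplicit false
open Cfsg

namespace Cfsg.Agent.S0335

/-- The Suzuki–Tits point set is an ovoid: any three distinct points of it are projectively independent
(no line of projective 3-space meets it in more than two points). -/
theorem result {F : Type*} [Field F] [Fintype F] {m : ℕ} (hm : 1 ≤ m)
    (hF : Fintype.card F = 2 ^ (2 * m + 1)) (p : Fin 3 ↪ Cfsg.suzukiOvoid F m) :
    Projectivization.Independent (fun i => (p i : Projectivization F (Fin 4 → F))) := by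
  have : Suzuki.IsSz F m := ⟨hm, hF⟩
  obtain ⟨g, h0, h1⟩ := Suzuki.exists_smul_pair (p := p 0) (q := p 1) (p.injective.ne (by decide))
  rcases Suzuki.ovoid_cases (g⁻¹ • p 2) with h | ⟨x, y, h⟩
  · rw [inv_smul_eq_iff, h0] at h
    exact absurd (p.injective h) (by decide)
  rw [inv_smul_eq_iff] at h
  have hxy : ¬ (x = 0 ∧ y = 0) := by
    rintro ⟨rfl, rfl⟩
    rw [h1] at h
    exact absurd (p.injective h) (by decide)
  let v : Fin 3 → Fin 4 → F :=
    ![![1, 0, 0, 0], ![Suzuki.ff (0 : F) 0, 0, 0, 1], ![Suzuki.ff x y, y, x, 1]]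
  have hv : LinearIndependent F v := by
    rw [Fintype.linearIndependent_iff]
    intro c hc
    have e0 := congrFun hc 0
    have e1 := congrFun hc 1
    have e2 := congrFun hc 2
    have e3 := congrFun hc 3
    simp [v, Fin.sum_univ_succ] at e0 e1 e2 e3
    have hc2 : c 2 = 0 := by
      by_contra hne
      exact hxy ⟨e2.resolve_left hne, e1.resolve_left hne⟩
    rw [hc2] at e0 e3
    intro i
    fin_cases i
    · simpa using e0
    · simpa using e3
    · exact hc2
  let e := DistribMulAction.toLinearEquiv F (Fin 4 → F) (g : Matrix.SpecialLinearGroup (Fin 4) F)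
  have hv' : LinearIndependent F (e.toLinearMap ∘ v) := hv.map' e.toLinearMap e.ker
  have := Projectivization.Independent.mk (e.toLinearMap ∘ v) (fun i => hv'.ne_zero i) hv'
  convert this using 2 with i
  fin_cases i
  · exact congrArg Subtype.val h0.symm
  · exact congrArg Subtype.val h1.symm
  · exact congrArg Subtype.val h

end Cfsg.Agent.S0335
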