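import Cfsg.Statements.S0336
import Cfsg.Agent.Three.Main

set_option autoImplicit false
open Cfsg

namespace Cfsg.Agent.S0336

/-- A finite non-abelian simple group of order prime to `3` has the order of a Suzuki
group `q²(q²+1)(q-1)`, `q = 2^(2m+1)`, `m ≥ 1` (stated with the order-level predicate `IsSuzuki`). -/
theorem result {G : Type*} [Group G] [Finite G] [IsSimpleGroup G]
    (hG : ∃ a b : G, a * b ≠ b * a) (h3 : ¬ 3 ∣ Nat.card G) : Cfsg.IsSuzuki G := by
  obtain ⟨a, b, hab⟩ := hG
  obtain ⟨k, hk, h⟩ := Three.suz G (fun h => hab (h.is_comm.comm a b)) h3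
  exact ⟨inferInstance, k, hk, h.card⟩

end Cfsg.Agent.S0336
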