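import Cfsg.Statements.S0337
import Cfsg.Agent.FT.Final
import Cfsg.Agent.L34.Class

set_option autoImplicit false
open Cfsg

namespace Cfsg.Agent.S0337

/-- Classification of simple CN-groups, order-level form: a finite non-abelian simple group in which every
non-identity element has nilpotent centraliser is isomorphic to `PSL₂(F)` with `|F| = 9`, `|F|` a power of `2`, or
`|F|` a prime of the form `2^k ± 1`; or to `PSL₃` over the field with `4` elements; or is simple of Suzuki order. -/
theorem result {G : Type*} [Group G] [Finite G] [IsSimpleGroup G]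
    (hG : ∃ a b : G, a * b ≠ b * a) (hCN : Cfsg.IsCNGroup G) :
    (∃ (F : Type) (_ : Field F) (_ : Fintype F),
        (Fintype.card F = 9 ∨ (∃ n : ℕ, Fintype.card F = 2 ^ n) ∨
          ((Fintype.card F).Prime ∧ ∃ k : ℕ, Fintype.card F = 2 ^ k + 1 ∨ Fintype.card F + 1 = 2 ^ k)) ∧
        Nonempty (G ≃* Matrix.ProjectiveSpecialLinearGroup (Fin 2) F)) ∨
    (∃ (F : Type) (_ : Field F) (_ : Fintype F), Fintype.card F = 4 ∧
        Nonempty (G ≃* Matrix.ProjectiveSpecialLinearGroup (Fin 3) F)) ∨
    Cfsg.IsSuzuki G := by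
  exact L34.cit_class FT.oddOrder hG (CN.isCIT_of_simple hG hCN)

end Cfsg.Agent.S0337
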