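import Cfsg.Statements.S0341
import Cfsg.Agent.Char.Zassenhaus
import Cfsg.Agent.Char.Vandermonde
import Cfsg.Agent.Local.Coprime

set_option autoImplicit false
open Cfsg

namespace Cfsg.Agent.S0341

/-- If a finite group acts faithfully and doubly transitively, no non-identity element fixes three points, some
non-identity element fixes two points, and some normal subgroup acts regularly, then the number of points
is `2^p` with `p` prime. -/
theorem result {G Ω : Type*} [Group G]
    [MulAction G Ω] [Fintype Ω] [FaithfulSMul G Ω] (h2 : MulAction.IsMultiplyPretransitive G Ω 2)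
    (h3 : ∀ g : G, ∀ a b c : Ω, a ≠ b → b ≠ c → a ≠ c → g • a = a → g • b = b → g • c = c → g = 1)
    (hfix : ∃ g : G, g ≠ 1 ∧ ∃ a b : Ω, a ≠ b ∧ g • a = a ∧ g • b = b)
    (N : Subgroup G) [N.Normal] (hNt : MulAction.IsPretransitive N Ω)
    (hNr : ∀ a : Ω, MulAction.stabilizer N a = ⊥) :
    ∃ p : ℕ, p.Prime ∧ Fintype.card Ω = 2 ^ p := by
  have := Char.finite_of_faithful (G := G) (Ω := Ω)
  obtain ⟨g, hg1, a, b, hab, ha, hb⟩ := hfix
  obtain ⟨n, hn, hna⟩ := Char.exists_mem_smul_eq hNt a b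
  have hNb : N ≠ ⊥ := by
    intro h
    rw [h, Subgroup.mem_bot] at hn
    rw [hn, one_smul] at hna
    exact hab hna
  obtain ⟨-, -, -, -, hNc⟩ := Char.regular_normal_elementary h2 hNb hNr a
  obtain ⟨K, hK⟩ := Char.exists_isZKernel h2 h3 hab
  have hKb : K ≠ ⊥ := by
    intro h
    apply hg1
    apply eq_of_smul_eq_smul (α := Ω)
    intro c
    rw [one_smul]
    by_cases hc : c = a
    · rw [hc, ha]
    · obtain ⟨k, hk, hkb⟩ := hK.trans b c hab.symm hc
      rw [h, Subgroup.mem_bot] at hk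
      rw [hk, one_smul] at hkb
      rw [← hkb, hb]
  -- an element of prime order fixing `a` and `b`
  obtain ⟨r, hr, hrd⟩ := Nat.exists_prime_and_dvd (n := orderOf g) (by simpa using hg1)
  set x := g ^ (orderOf g / r) with hx
  have hxo : orderOf x = r := orderOf_pow_orderOf_div (orderOf_pos g).ne' hrd
  have hxH : x ∈ MulAction.stabilizer G a ⊓ MulAction.stabilizer G b :=
    Subgroup.pow_mem _ (Subgroup.mem_inf.mpr ⟨ha, hb⟩) _
  have hx1 : ∀ i : ℕ, 0 < i → i < r → x ^ i ≠ 1 := fun i h0 hi =>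
    pow_ne_one_of_lt_orderOf h0.ne' (by rwa [hxo])
  have hcop : (Nat.card (Subgroup.zpowers x)).Coprime (Nat.card K) := by
    rw [Nat.card_zpowers]
    have h4 := (Subgroup.orderOf_dvd_natCard _ hxH).trans (hK.card_dvd h3 hab.symm)
    have h5 : 0 < Nat.card K := Nat.card_pos
    have h6 : (Nat.card K - 1).Coprime (Nat.card K) := by
      obtain ⟨m, hm⟩ : ∃ m, Nat.card K = m + 1 := ⟨Nat.card K - 1, by omega⟩
      rw [hm]; simp
    exact Nat.Coprime.coprime_dvd_left h4 h6
  obtain ⟨s, hs, hsd⟩ := Nat.exists_prime_and_dvd (n := Nat.card K)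
    ((Subgroup.one_lt_card_iff_ne_bot K).mpr hKb).ne'
  have : Fact s.Prime := ⟨hs⟩
  obtain ⟨P, hP, hxP⟩ := Local.exists_invariant_isSylowIn (A := Subgroup.zpowers x) (N := K)
    (by
      rw [Subgroup.zpowers_le]
      exact Local.mem_normalizer_of_conj_mem (fun k hk => hK.conj_mem hxH.1 hk))
    hcop (Or.inl (Local.isSolvable_zpowers x)) s
  have hPb := hP.ne_bot hsd
  have : Nontrivial P := (Subgroup.nontrivial_iff_ne_bot _).mpr hPb
  have := hP.isPGroup.center_nontrivial
  obtain ⟨⟨⟨z, hzP⟩, hz⟩, hz1⟩ := exists_ne (1 : Subgroup.center P)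
  have hz1' : z ≠ 1 := by intro h1; apply hz1; ext; exact h1
  have hzc : ∀ y ∈ P, y * z = z * y := fun y hy =>
    congrArg Subtype.val (Subgroup.mem_center_iff.mp hz ⟨y, hy⟩)
  have hxi : ∀ i : ℕ, x ^ i ∈ Subgroup.normalizer (P : Set G) := fun i =>
    hxP (Subgroup.pow_mem _ (Subgroup.mem_zpowers x) i)
  have hzi : ∀ i : ℕ, x ^ i * z * (x ^ i)⁻¹ ∈ P := fun i =>
    Local.conj_mem_of_mem_normalizer (hxi i) hzP
  have key := Char.card_eq_pow_centralizer N hNc x z (r := r) (by rw [← hxo, pow_orderOf_eq_one])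
    hr.pos (fun i j => by
      have h4 := hzc _ (Local.inv_conj_mem_of_mem_normalizer (hxi j) (hzi i))
      rw [commute_iff_eq]
      generalize x ^ i * z * (x ^ i)⁻¹ = A at h4 ⊢
      generalize x ^ j = B at h4 ⊢
      calc A * (B * z * B⁻¹) = B * (B⁻¹ * A * B * z) * B⁻¹ := by group
        _ = B * z * B⁻¹ * A := by rw [h4]; group)
    (fun i hi j hj hij v hv hc => by
      have hk : (x ^ j * z * (x ^ j)⁻¹)⁻¹ * (x ^ i * z * (x ^ i)⁻¹) ∈ K :=
        hP.le (P.mul_mem (P.inv_mem (hzi j)) (hzi i))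
      by_contra hv1
      have hva : v • a ≠ a := fun h => hv1 (Char.eq_one_of_smul_eq_of_regular hNr hv a h)
      have h4 := hK.eq_one hk hva (Char.smul_fixed_of_commute hc.symm (hK.smul_eq hk))
      rw [inv_mul_eq_one] at h4
      have key : ∀ i < r, ∀ j < r, i < j → x ^ i * z * (x ^ i)⁻¹ ≠ x ^ j * z * (x ^ j)⁻¹ := by
        intro i _ j hj hij h5
        obtain ⟨d, rfl⟩ := Nat.exists_eq_add_of_lt hij
        have hxd : x ^ (d + 1) ∈ MulAction.stabilizer G a ⊓ MulAction.stabilizer G b :=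
          Subgroup.pow_mem _ hxH _
        apply hz1'
        apply hK.eq_one_of_commute h3 hxd.1
          (hK.notMem (hx1 (d + 1) (by omega) (by omega)) hab.symm hxd.2) (hP.le hzP)
        rw [add_assoc, pow_add] at h5
        rw [commute_iff_eq]
        generalize x ^ (d + 1) = B at h5 ⊢
        generalize x ^ i = A at h5 ⊢
        calc z * B = A⁻¹ * (A * z * A⁻¹) * A * B := by group
          _ = B * z := by rw [h5]; group
      rcases lt_or_gt_of_ne hij with h | h
      · exact key i hi j hj h h4.symm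
      · exact key j hj i hi h h4)
  have hcard : Nat.card ↥(N ⊓ Subgroup.centralizer {x}) = 2 := by
    have hn1 : n ≠ 1 := by rintro rfl; exact hab (by simpa using hna)
    rw [Nat.card_eq_two_iff]
    refine ⟨1, ⟨n, hn, ?_⟩, fun h => hn1 (congrArg Subtype.val h).symm, ?_⟩
    · intro y hy
      rw [Set.mem_singleton_iff.mp hy, ← mul_inv_eq_iff_eq_mul]
      apply Char.eq_of_smul_eq_of_regular hNr (Subgroup.Normal.conj_mem inferInstance n hn x) hn a
      have h4 : x⁻¹ • a = a := by rw [inv_smul_eq_iff]; exact hxH.1.symm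
      rw [mul_smul, mul_smul, h4, hna]
      exact hxH.2
    · rw [Set.eq_univ_iff_forall]
      rintro ⟨m, hm, hmc⟩
      have h4 : x • m • a = m • a :=
        Char.smul_fixed_of_commute (show Commute m x from (hmc x rfl).symm) hxH.1
      by_cases h5 : m • a = a
      · left; exact Subtype.ext (Char.eq_one_of_smul_eq_of_regular hNr hm a h5)
      · right
        apply Subtype.ext
        apply Char.eq_of_smul_eq_of_regular hNr hm hn a
        rw [hna]
        by_contra h6
        exact hx1 1 one_pos hr.one_lt (by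
          rw [pow_one]
          exact h3 x a b (m • a) hab (Ne.symm h6) (Ne.symm h5) hxH.1 hxH.2 h4)
  refine ⟨r, hr, ?_⟩
  rw [← Nat.card_eq_fintype_card, ← Char.card_eq_of_regular hNt hNr a, key, hcard]

end Cfsg.Agent.S0341
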