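import Cfsg.Statements.S0344
import Cfsg.Agent.PSL2Rec.ZEven

set_option autoImplicit false
open Cfsg

namespace Cfsg.Agent.S0344

/-- A finite simple Zassenhaus group with a two-point stabiliser of even order is isomorphic to `PSL₂(F)` for a finite
field `F` with more than three elements. -/
theorem result {G Ω : Type*} [Group G] [Finite G] [MulAction G Ω] [Finite Ω]
    (hZ : Cfsg.IsZassenhausGroup G Ω) [IsSimpleGroup G]
    {a b : Ω} (hab : a ≠ b) (heven : Even (Nat.card ↥(MulAction.stabilizer G a ⊓ MulAction.stabilizer G b))) :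
    ∃ (F : Type) (_ : Field F) (_ : Fintype F), 3 < Fintype.card F ∧ Nonempty (G ≃* Matrix.ProjectiveSpecialLinearGroup (Fin 2) F) := by
  obtain ⟨P, v, h, -, -, h1, hi, hc⟩ := PSL2Rec.zass_even hZ hab heven
  have hpos : 0 < Nat.card ↥(MulAction.stabilizer G a ⊓ MulAction.stabilizer G b) := Nat.card_pos
  obtain ⟨p, hp, hp1⟩ : ∃ p ∈ P, p ≠ 1 := (Subgroup.bot_or_exists_ne_one P).resolve_left (by
    rw [← Ne, ← Subgroup.one_lt_card_iff_ne_bot]
    omega)
  obtain ⟨F, _, _, hF⟩ := PSL2Rec.exists_field_of_card h.norm h.semi h1.ge (Char.comm_of_inverts hi)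
    hp hp1 (fun x hx => hc x hx p hp)
  have h3 : 3 < Fintype.card F := by
    obtain ⟨m, hm⟩ := heven
    omega
  refine ⟨F, inferInstance, inferInstance, h3, ?_⟩
  rcases h.recognition hF h3 (Char.comm_of_inverts hi) le_rfl h1.ge hi hp hp1
    (fun x hx => hc x hx p hp) with ⟨-, -, h2⟩ | ⟨h2, -⟩
  · omega
  · exact h2

end Cfsg.Agent.S0344
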