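import Cfsg.Statements.S0347
import Cfsg.Agent.Zass.Suz
import Cfsg.Agent.Zass.Mk

set_option autoImplicit false
open Cfsg

namespace Cfsg.Agent.S0347

open scoped commutatorElement

/-- If in a finite simple Zassenhaus group the stabiliser of a point `x` has a normal `2`-subgroup `U` which is
non-abelian and acts regularly on the points other than `x`, then the group is simple of Suzuki order (order-level
predicate `IsSuzuki`). -/
theorem result {G Ω : Type*} [Group G] [Finite G] [MulAction G Ω] [Finite Ω]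
    (hZ : Cfsg.IsZassenhausGroup G Ω) [IsSimpleGroup G]
    (x : Ω) (U : Subgroup G) (hUle : U ≤ MulAction.stabilizer G x) (hUn : (U.subgroupOf (MulAction.stabilizer G x)).Normal)
    (hU2 : IsPGroup 2 U) (hUna : ∃ u v : U, u * v ≠ v * u)
    (hreg : ∀ y z : Ω, y ≠ x → z ≠ x → ∃! u : U, (u : G) • y = z) :
    Cfsg.IsSuzuki G := by
  have := Fintype.ofFinite G
  obtain ⟨b, hxb⟩ := Zass.zass_exists_ne hZ x
  obtain ⟨K, hK⟩ := Char.exists_isZKernel hZ.2.1 hZ.2.2.1 hxb
  have hUK : U ≤ K := by
    intro u hu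
    rw [hK.mem]
    by_cases h1 : u = 1
    · exact Or.inl h1
    · refine Or.inr ⟨hUle hu, fun y hy hh => h1 ?_⟩
      have := (hreg y y hy hy).unique (y₁ := ⟨u, hu⟩) (y₂ := 1) hh (one_smul _ _)
      exact congrArg Subtype.val this
  have hKU : K ≤ U := by
    intro k hk
    obtain ⟨u, hu, -⟩ := hreg b (k • b) hxb.symm (hK.smul_ne hk hxb.symm)
    rw [← hK.eq_of_smul_eq (hUK u.2) hk hxb.symm hu]
    exact u.2
  obtain rfl : U = K := le_antisymm hUK hKU
  have hnc : commutator U ≠ ⊥ := by
    intro h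
    obtain ⟨u, v, huv⟩ := hUna
    apply huv
    have : ⁅u, v⁆ ∈ commutator U :=
      Subgroup.commutator_mem_commutator (Subgroup.mem_top _) (Subgroup.mem_top _)
    rw [h, Subgroup.mem_bot, commutatorElement_eq_one_iff_mul_comm] at this
    exact this
  have hev : Even (Nat.card U) := by
    have := Zass.even_card_of_two hU2 (M := ⊤) (fun h => hnc (eq_bot_iff.mpr (h ▸ le_top)))
    rwa [Subgroup.card_top] at this
  obtain ⟨D, -, -, rfl, -⟩ := Zass.exists_data_of_even hZ hxb hK hev
  obtain ⟨k, hk, h1, h2⟩ := Zass.ZData.suzuki_order hU2 hnc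
  refine ⟨inferInstance, k, hk, ?_⟩
  rw [D.card_G, h1, ← h2, Nat.add_sub_cancel]
  ring

end Cfsg.Agent.S0347
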