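import Cfsg.Statements.S3356
import Cfsg.Agent.Local.HalfTrans

set_option autoImplicit false
open Cfsg

namespace Cfsg.Agent.S3356

open Cfsg.Agent.Local MulAction

/-- Let G be a finite 3/2-transitive permutation group: G acts faithfully and transitively on a finite set, the point stabilizers are non-trivial, and for each point a all orbits of G_a on the remaining points have the same size. Suppose G has a regular normal subgroup N and G is not a Frobenius group (some two-point stabilizer is non-trivial). Then N is an elementary abelian p-group for some prime p, and every non-trivial normal subgroup of G contains N (so N is the unique minimal normal subgroup). -/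
theorem result {G Ω : Type*} [Group G] [Finite G]
    [MulAction G Ω] [FaithfulSMul G Ω] [Finite Ω] (htrans : MulAction.IsPretransitive G Ω)
    (hne : ∀ a : Ω, MulAction.stabilizer G a ≠ ⊥)
    (hhalf : ∀ a b c : Ω, b ≠ a → c ≠ a →
      Nat.card (MulAction.orbit (MulAction.stabilizer G a) b) = Nat.card (MulAction.orbit (MulAction.stabilizer G a) c))
    (N : Subgroup G) [hN : N.Normal] (hNt : MulAction.IsPretransitive N Ω) (hNr : ∀ a : Ω, MulAction.stabilizer N a = ⊥)
    (hnotF : ∃ a b : Ω, a ≠ b ∧ MulAction.stabilizer G a ⊓ MulAction.stabilizer G b ≠ ⊥) :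
    (∃ p : ℕ, p.Prime ∧ IsMulCommutative N ∧ ∀ x ∈ N, x ^ p = 1) ∧
    (∀ M : Subgroup G, M.Normal → M ≠ ⊥ → N ≤ M) := by
  obtain ⟨a, b, hab, hab'⟩ := hnotF
  set A := stabilizer G a with hA
  let _ : MulDistribMulAction A N :=
    MulDistribMulAction.compHom N ((MulAut.conjNormal (H := N)).comp A.subtype)
  have hsm : ∀ (s : A) (n : N), ((s • n : N) : G) = s * n * (s : G)⁻¹ := fun s n => rfl
  have hinj : ∀ n n' : N, (n : G) • a = (n' : G) • a → n = n' := by
    intro n n' h
    have : n'⁻¹ * n ∈ stabilizer N a := by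
      rw [mem_stabilizer_iff, mul_smul, inv_smul_eq_iff]
      exact h
    rw [hNr a, Subgroup.mem_bot] at this
    exact (inv_mul_eq_one.1 this).symm
  have hsa : ∀ (s : A) (n : N), ((s • n : N) : G) • a = (s : G) • (n : G) • a := by
    intro s n
    have hs : (s : G)⁻¹ • a = a := (A.inv_mem s.2)
    rw [hsm, mul_smul, mul_smul, hs]
  have hstab : ∀ n : N, stabilizer A n = stabilizer A ((n : G) • a) := by
    intro n
    ext s
    rw [mem_stabilizer_iff, mem_stabilizer_iff]
    constructor
    · intro h
      change (s : G) • (n : G) • a = _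
      rw [← hsa, h]
    · intro h
      apply hinj
      rw [hsa]; exact h
  have hfaith : ∀ s : A, (∀ x : N, s • x = x) → s = 1 := by
    intro s hs
    apply Subtype.ext
    refine FaithfulSMul.eq_of_smul_eq_smul (α := Ω) fun c => ?_
    obtain ⟨n, rfl⟩ := hNt.exists_smul_eq a c
    change (s : G) • (n : G) • a = (1 : G) • (n : G) • a
    rw [← hsa, hs, one_smul]
  have hm : ∀ x : N, x ≠ 1 → (stabilizer A x).index = Nat.card (orbit A b) := by
    intro x hx
    rw [hstab, index_stabilizer, ← Nat.card_coe_set_eq]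
    refine hhalf a _ b (fun h => hx (hinj _ _ ?_)) hab.symm
    rw [h]; simp
  have hns : ∃ x : N, x ≠ 1 ∧ stabilizer A x ≠ ⊥ := by
    obtain ⟨n, hn⟩ := hNt.exists_smul_eq a b
    have hn' : (n : G) • a = b := hn
    refine ⟨n, ?_, ?_⟩
    · rintro rfl
      exact hab (by simpa using hn')
    · rw [hstab, hn']
      intro h
      apply hab'
      rw [eq_bot_iff]
      intro g hg
      have : (⟨g, hg.1⟩ : A) ∈ stabilizer A b := hg.2
      rw [h, Subgroup.mem_bot] at this
      exact congrArg Subtype.val this
  obtain ⟨⟨p, hp, hcomm, hexp⟩, hirr⟩ := halfTransitive_elementaryAbelian hfaith _ hm hns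
  refine ⟨⟨p, hp, hcomm, fun x hx => congrArg Subtype.val (hexp ⟨x, hx⟩)⟩, ?_⟩
  intro M hM hMne
  rw [← Subgroup.subgroupOf_eq_top]
  refine hirr _ (fun s u hu => ?_) ?_
  · rw [Subgroup.mem_subgroupOf] at hu ⊢
    rw [hsm]
    exact hM.conj_mem _ hu _
  · intro h
    rw [Subgroup.subgroupOf_eq_bot] at h
    apply hMne
    rw [eq_bot_iff]
    intro g hg
    obtain ⟨n, hn⟩ := hNt.exists_smul_eq a (g • a)
    have hn' : (n : G) • a = g • a := hn
    have hs : (n : G)⁻¹ * g ∈ A := by
      rw [mem_stabilizer_iff, mul_smul, ← hn', inv_smul_smul]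
    have h1 := hfaith ⟨_, hs⟩ (by
      intro x
      apply Subtype.ext
      rw [hsm]
      have c1 : g * x = x * g := (Subgroup.commute_of_normal_of_disjoint M N hM hN h g x hg x.2).eq
      have c2 : (n : G) * x = x * n := congrArg Subtype.val (hcomm.1.comm n x)
      calc (n : G)⁻¹ * g * x * ((n : G)⁻¹ * g)⁻¹ = (n : G)⁻¹ * (g * x) * g⁻¹ * n := by group
        _ = (n : G)⁻¹ * (x * n) := by rw [c1]; group
        _ = x := by rw [← c2]; group)
    have h2 : (n : G) = g := inv_mul_eq_one.1 (congrArg Subtype.val h1)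
    exact (Subgroup.disjoint_def.1 h) hg (h2 ▸ n.2)

end Cfsg.Agent.S3356
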