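import Cfsg.Statements.S3357
import Cfsg.Agent.Local.FpfLift

set_option autoImplicit false
open Cfsg

namespace Cfsg.Agent.S3357

open Cfsg.Agent.Local
theorem exists_irr {G k V : Type*} [Group G] [Field k] [AddCommGroup V] [Module k V]
    [Module.Finite k V] [Nontrivial V] (ρ : G →* Module.End k V) :
    ∃ (W : Submodule k V) (_ : ∀ g, ∀ w ∈ W, ρ g w ∈ W), W ≠ ⊥ ∧
      ∀ U : Submodule k V, U ≤ W → (∀ g, ∀ w ∈ U, ρ g w ∈ U) → U = ⊥ ∨ U = W := by
  obtain ⟨W, ⟨h1, h2⟩, h3⟩ := (IsArtinian.set_has_minimal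
    {W : Submodule k V | W ≠ ⊥ ∧ ∀ g, ∀ w ∈ W, ρ g w ∈ W} ⟨⊤, top_ne_bot, fun _ _ _ => trivial⟩ :)
  refine ⟨W, h2, h1, fun U hU hU' => ?_⟩
  by_contra h
  push Not at h
  exact h3 U ⟨h.1, hU'⟩ (lt_of_le_of_ne hU h.2)

theorem main {G k V : Type*} [Group G] [Finite G] [Field k] [CharZero k] [AddCommGroup V]
    [Module k V] [Module.Finite k V] [Nontrivial V] (ρ₀ : G →* Module.End k V)
    (hsum : ∀ u : G, u ≠ 1 → ∑ i ∈ Finset.range (orderOf u), ρ₀ u ^ i = 0) :
    ∃ (n : ℕ) (ρ : G →* GL (Fin n) k), 0 < n ∧ Function.Injective ρ ∧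
      (∀ W : Submodule k (Fin n → k),
        (∀ g : G, ∀ w ∈ W, ((ρ g : GL (Fin n) k) : Matrix (Fin n) (Fin n) k).mulVec w ∈ W) →
          W = ⊥ ∨ W = ⊤) ∧
      ∀ g : G, g ≠ 1 → ∀ v : Fin n → k,
        ((ρ g : GL (Fin n) k) : Matrix (Fin n) (Fin n) k).mulVec v = v → v = 0 := by
  classical
  obtain ⟨W, hW, hW0, hirr⟩ := exists_irr (ρ₀)
  let σ : G →* Module.End k W :=
    { toFun := fun g => (ρ₀ g).restrict (hW g)
      map_one' := by ext w; simp
      map_mul' := fun x y => by ext w; simp }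
  let b := Module.finBasis k W
  let ρ : G →* GL (Fin (Module.finrank k W)) k :=
    ((LinearMap.toMatrixAlgEquiv b).toMonoidHom.comp σ).toHomUnits
  have hρ : ∀ g (w : W), ((ρ g : GL (Fin (Module.finrank k W)) k) : Matrix _ _ k).mulVec
      (b.equivFun w) = b.equivFun (σ g w) := fun g w => LinearMap.toMatrix_mulVec_repr b b (σ g) w
  have hfpf : ∀ g : G, g ≠ 1 → ∀ v : Fin (Module.finrank k W) → k,
      ((ρ g : GL (Fin (Module.finrank k W)) k) : Matrix _ _ k).mulVec v = v → v = 0 := by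
    intro g hg v hv
    obtain ⟨w, rfl⟩ := b.equivFun.surjective v
    rw [hρ] at hv
    have h1 : ρ₀ g w = w := congrArg Subtype.val (b.equivFun.injective hv)
    have h2 := LinearMap.congr_fun (hsum g hg) w
    rw [LinearMap.sum_apply, Finset.sum_congr rfl fun i _ =>
      (Module.End.pow_apply _ i _).trans (Function.iterate_fixed h1 i), Finset.sum_const,
      Finset.card_range, LinearMap.zero_apply, ← Nat.cast_smul_eq_nsmul k, smul_eq_zero] at h2
    have h3 : w = 0 := Subtype.ext (h2.resolve_left (by exact_mod_cast (orderOf_pos g).ne'))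
    rw [h3, map_zero]
  have hpos : 0 < Module.finrank k W := by
    have : Nontrivial W := Submodule.nontrivial_iff_ne_bot.2 hW0
    exact Module.finrank_pos
  refine ⟨_, ρ, hpos, (injective_iff_map_eq_one ρ).2 fun g hg => ?_, fun U hU => ?_, hfpf⟩
  · by_contra hg1
    have := hfpf g hg1 (fun _ => 1) (by rw [hg]; simp)
    exact one_ne_zero (congrFun this ⟨0, hpos⟩)
  · have h1 := hirr ((U.comap b.equivFun.toLinearMap).map W.subtype) (Submodule.map_subtype_le _ _)
      (by
        rintro g _ ⟨w, hw, rfl⟩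
        exact ⟨σ g w, by
          change b.equivFun (σ g w) ∈ U
          rw [← hρ]
          exact hU g _ hw, rfl⟩)
    rcases h1 with h1 | h1
    · refine Or.inl (eq_bot_iff.2 fun v hv => ?_)
      obtain ⟨w, rfl⟩ := b.equivFun.surjective v
      have : (w : V) ∈ (⊥ : Submodule k (V)) := h1 ▸ ⟨w, hv, rfl⟩
      have h3 : w = 0 := Subtype.ext this
      rw [h3, map_zero]
      exact Submodule.zero_mem _
    · refine Or.inr (eq_top_iff.2 fun v _ => ?_)
      obtain ⟨w, rfl⟩ := b.equivFun.surjective v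
      obtain ⟨w', hw', h⟩ := h1.ge w.2
      rwa [← (Subtype.ext h : w' = w)]


/-- Let G be a finite group that occurs as a Frobenius complement. Then G has a faithful irreducible representation over an algebraic closure of the rationals in which no non-identity element of G has 1 as an eigenvalue: there are n ≥ 1 and an injective homomorphism ρ from G to GL(n) over that field, with no invariant subspace other than 0 and the whole space, such that for g ≠ 1 the only vector fixed by ρ(g) is 0. -/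
theorem result {G : Type*} [Group G] [Finite G]
    (hFC : ∃ (L : Type) (_ : Group L) (_ : Finite L) (H : Subgroup L), Cfsg.IsFrobeniusComplement H ∧ Nonempty (G ≃* H)) :
    ∃ (n : ℕ) (ρ : G →* GL (Fin n) (AlgebraicClosure ℚ)), 0 < n ∧ Function.Injective ρ ∧
      (∀ W : Submodule (AlgebraicClosure ℚ) (Fin n → AlgebraicClosure ℚ),
        (∀ g : G, ∀ w ∈ W, ((ρ g : GL (Fin n) (AlgebraicClosure ℚ)) : Matrix (Fin n) (Fin n) (AlgebraicClosure ℚ)).mulVec w ∈ W) → W = ⊥ ∨ W = ⊤) ∧
      ∀ g : G, g ≠ 1 → ∀ v : Fin n → AlgebraicClosure ℚ,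
        ((ρ g : GL (Fin n) (AlgebraicClosure ℚ)) : Matrix (Fin n) (Fin n) (AlgebraicClosure ℚ)).mulVec v = v → v = 0 := by
  have := nontrivial_cuspSub (AlgebraicClosure ℚ) hFC
  exact main (cuspRep (AlgebraicClosure ℚ) G) fun u hu => sum_cuspRep_eq_zero _ hu
end Cfsg.Agent.S3357
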