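import Cfsg.Statements.S3358
import Cfsg.Agent.Local.Quat
import Cfsg.Agent.Local.Thompson

set_option autoImplicit false
open Cfsg

namespace Cfsg.Agent.S3358

open Cfsg.Agent.Local
open Subgroup in
theorem exists_hom_of_index_two {G : Type*} [Group G] {A : Subgroup G} (h : A.index = 2) :
    ∃ f : G →* Equiv.Perm (Fin 4), f.ker = A := by
  classical
  refine ⟨MonoidHom.mk' (fun g => if g ∈ A then 1 else Equiv.swap 0 1) fun a b => ?_, ?_⟩
  · by_cases ha : a ∈ A <;> by_cases hb : b ∈ A <;>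
      simp [Subgroup.mul_mem_iff_of_index_two h, ha, hb]
  · ext g
    by_cases hg : g ∈ A <;> simp [MonoidHom.mem_ker, hg]

open Subgroup in
theorem exists_hom_ker_cyclic {G : Type*} [Group G] [Finite G] (hs : Group.IsSolvable G)
    (hO : Cfsg.pPrimeCore 2 G = ⊥)
    (huniq : ∀ s t : G, s * s = 1 → s ≠ 1 → t * t = 1 → t = 1 ∨ t = s) :
    ∃ f : G →* Equiv.Perm (Fin 4), IsCyclic f.ker := by
  have hC := centralizer_pCore_le hs hO
  have hQ := isPGroup_pCore (G := G) 2
  by_cases h : ∀ x : G, (orderOf x).Coprime 2 → x ∈ centralizer (Cfsg.pCore 2 G : Set G)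
  · have h2 : IsPGroup 2 (⊤ : Subgroup G) := isPGroup_of_forall_coprime_eq_one fun x _ hx =>
      eq_one_of_mem_isPGroup_of_coprime hQ (hC (h x hx)) hx
    rcases cyclic_or_quaternion_of_unique_involution h2 huniq with h3 | ⟨n, ⟨e⟩⟩
    · exact ⟨1, by rwa [MonoidHom.ker_one]⟩
    · obtain ⟨a, -, -, ha, -⟩ := quaternion_data e
      rw [relIndex_top_right] at ha
      obtain ⟨f, hf⟩ := exists_hom_of_index_two ha
      exact ⟨f, by rw [hf]; infer_instance⟩
  · push Not at h
    obtain ⟨x, hx, hxC⟩ := h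
    obtain ⟨e⟩ := quaternion_eight_of_not_mem_centralizer hQ
      (cyclic_or_quaternion_of_unique_involution hQ huniq)
      (le_normalizer_of_normal' ⊤ _ (mem_top x)) hx hxC
    obtain ⟨f, hf⟩ := exists_perm_four_of_normal_q8 e
    refine ⟨f, ?_⟩
    rw [hf]
    have h1 : ∀ y ∈ centralizer (Cfsg.pCore 2 G : Set G), y * y = 1 := fun y hy =>
      mul_self_eq_one_of_central_q8 e (hC hy) hy
    by_cases h2 : ∀ y ∈ centralizer (Cfsg.pCore 2 G : Set G), y = 1
    · exact isCyclic_of_le (Q := ⊥) inferInstance h2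
    · push Not at h2
      obtain ⟨z, hz, hz1⟩ := h2
      refine isCyclic_of_le (Q := zpowers z) inferInstance fun y hy => ?_
      rcases huniq z y (h1 z hz) hz1 (h1 y hy) with rfl | rfl
      · exact one_mem _
      · exact mem_zpowers _

open Subgroup in
theorem exists_lift_involution {G : Type*} [Group G] [Finite G] {O : Subgroup G} [O.Normal]
    (hO : (Nat.card O).Coprime 2) (s : G ⧸ O) (hs : s * s = 1) :
    ∃ t : G, t * t = 1 ∧ QuotientGroup.mk' O t = s := by
  obtain ⟨t, rfl⟩ := QuotientGroup.mk'_surjective O s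
  rw [← map_mul] at hs
  have h1 : t * t ∈ O := (QuotientGroup.eq_one_iff _).1 hs
  refine ⟨t ^ Nat.card O, ?_, ?_⟩
  · rw [← (Commute.refl t).mul_pow]
    exact congrArg Subtype.val (pow_card_eq_one' (x := (⟨_, h1⟩ : O)))
  · obtain ⟨k, hk⟩ := Nat.coprime_two_right.1 hO
    rw [hk, pow_succ, pow_mul, sq, map_mul, map_pow, hs, one_pow, one_mul]


/-- Structure of solvable Frobenius complements. Let G be a finite solvable group that occurs as a Frobenius complement. Then G has a normal subgroup G₀ such that G/G₀ is isomorphic to a subgroup of Sym(4) (G₀ is the kernel of a homomorphism to Sym(4)), all Sylow subgroups of G₀ are cyclic, and G₀ has a presentation ⟨x, y | x^n = 1, y^m = 1, x⁻¹ y x = y^r⟩ with n, m ≥ 1, gcd(r − 1, m) = gcd(n, m) = 1 and r^(n/n′) ≡ 1 (mod m), where n′ is the product of the distinct primes dividing n. -/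
theorem result {G : Type*} [Group G] [Finite G] (hsol : Group.IsSolvable G)
    (hFC : ∃ (L : Type) (_ : Group L) (_ : Finite L) (H : Subgroup L), Cfsg.IsFrobeniusComplement H ∧ Nonempty (G ≃* H)) :
    ∃ G₀ : Subgroup G, G₀.Normal ∧
      (∃ f : G →* Equiv.Perm (Fin 4), f.ker = G₀) ∧
      (∀ (p : ℕ) [Fact p.Prime] (P : Sylow p G₀), IsCyclic P) ∧
      ∃ n m r : ℕ, 0 < n ∧ 0 < m ∧ Nat.Coprime (r - 1) m ∧ Nat.Coprime n m ∧ 1 ≤ r ∧
        r ^ (n / ∏ p ∈ n.primeFactors, p) % m = 1 % m ∧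
        Nonempty (G₀ ≃* PresentedGroup
          ({FreeGroup.of (0 : Fin 2) ^ n, FreeGroup.of (1 : Fin 2) ^ m,
            (FreeGroup.of (0 : Fin 2))⁻¹ * FreeGroup.of 1 * FreeGroup.of 0 * (FreeGroup.of (1 : Fin 2) ^ r)⁻¹} :
            Set (FreeGroup (Fin 2)))) := by
  have hG := fpfGroup_of_isFrobeniusComplement hFC
  have hO := coprime_card_pPrimeCore (G := G) 2
  obtain ⟨f, hf⟩ := exists_hom_ker_cyclic (G := G ⧸ Cfsg.pPrimeCore 2 G) inferInstance
    (pPrimeCore_quotient_eq_bot 2) (by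
      intro s t hs hs1 ht
      obtain ⟨s, hs', rfl⟩ := exists_lift_involution hO s hs
      obtain ⟨t, ht', rfl⟩ := exists_lift_involution hO t ht
      rcases hG.involution_unique hs' (fun h => hs1 (by rw [h, map_one])) ht' with rfl | rfl
      · exact Or.inl (map_one _)
      · exact Or.inr rfl)
  let π := QuotientGroup.mk' (Cfsg.pPrimeCore 2 G)
  have hZ : IsZGroup (f.comp π).ker := hG.isZGroup fun P hP hP2 => by
    let g : P →* f.ker := (π.comp P.subtype).codRestrict f.ker fun x => hP x.2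
    refine isCyclic_of_injective g ((injective_iff_map_eq_one g).2 fun x hx => ?_)
    exact Subtype.ext (eq_one_of_mem_of_coprime (coprime_card_of_isPGroup hP2 hO)
      ((QuotientGroup.eq_one_iff _).1 (congrArg Subtype.val hx)) x.2)
  exact ⟨(f.comp π).ker, inferInstance, ⟨_, rfl⟩, fun p hp P => IsZGroup.isZGroup p hp.out P,
    (hG.subgroup _).zgroup_presentation⟩
end Cfsg.Agent.S3358
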