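import Cfsg.Statements.S3361
import Cfsg.Agent.Local.Huppert
import Cfsg.Agent.Local.SL23

set_option autoImplicit false
open Cfsg

namespace Cfsg.Agent.S3361

open Cfsg.Agent.Local
open Subgroup
open scoped Pointwise commutatorElement

section aux

variable {G : Type*} [Group G]

theorem index_ker_eq_two (φ : G →* ℤˣ) (h : ∃ g, φ g = -1) : φ.ker.index = 2 := by
  have h1 : φ.range = ⊤ := by
    rw [eq_top_iff]
    intro u _
    rcases Int.units_eq_one_or u with rfl | rfl
    · exact one_mem _
    · exact h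
  rw [index_ker, h1, card_top, Nat.card_eq_fintype_card, Fintype.card_units_int]

variable {q : ℕ} [hq : Fact q.Prime] {V : Type*} [AddCommGroup V] [Module (ZMod q) V] [Finite V]
  [Nontrivial V] (ρ : G →* Module.End (ZMod q) V)

omit [Nontrivial V] in
theorem index_two_of_semilin (hq2 : q ≠ 2) (h : Semilin ρ)
    (htrans : ∀ v w : V, v ≠ 0 → w ≠ 0 → ∃ g : G, ρ g v = w) :
    ∃ N : Subgroup G, N.Normal ∧ N.index = 2 := by
  classical
  obtain ⟨L, _, _, e, he⟩ := h
  have h1 : ringChar L ≠ 2 := by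
    rw [Ne, FiniteField.even_card_iff_char_two, ← Nat.card_eq_fintype_card,
      ← Nat.card_congr e.toEquiv, card_module_zmod (q := q)]
    have := (hq.out.odd_of_ne_two hq2).pow (n := Module.finrank (ZMod q) V)
    rw [Nat.odd_iff] at this
    omega
  have h2 : ∀ (σ : L ≃+* L) (x : L), quadraticChar L (σ x) = quadraticChar L x := by
    intro σ x
    have h3 : IsSquare (σ x) ↔ IsSquare x :=
      ⟨fun h => by simpa using h.map σ.symm, fun h => h.map σ⟩
    simp [quadraticChar_apply, quadraticCharFun, h3]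
  let φ : G →* ℤ :=
    { toFun := fun g => quadraticChar L (e (ρ g (e.symm 1)))
      map_one' := by simp
      map_mul' := fun g h => by
        obtain ⟨a, σ, hg⟩ := he g
        rw [map_mul, Module.End.mul_apply, hg, hg, map_mul, map_mul, h2, h2]
        simp }
  refine ⟨φ.toHomUnits.ker, inferInstance, index_ker_eq_two _ ?_⟩
  obtain ⟨a, ha⟩ := quadraticChar_exists_neg_one h1
  have ha0 : a ≠ 0 := by
    rintro rfl
    simp at ha
  obtain ⟨g, hg⟩ := htrans (e.symm 1) (e.symm a) (by simp) (by simpa using ha0)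
  refine ⟨g, Units.ext ?_⟩
  change quadraticChar L (e (ρ g (e.symm 1))) = _
  rw [hg]
  simpa using ha

theorem card_eq_of_regular (htrans : ∀ v w : V, v ≠ 0 → w ≠ 0 → ∃ g : G, ρ g v = w)
    (hreg : ∀ v : V, v ≠ 0 → ∀ g : G, ρ g v = v → g = 1) : Nat.card G = Nat.card V - 1 := by
  obtain ⟨v, hv⟩ := exists_ne (0 : V)
  have h1 : ∀ g : G, ρ g v ≠ 0 := by
    intro g h2
    have := congrArg (ρ g⁻¹) h2
    rw [← Module.End.mul_apply, ← map_mul, inv_mul_cancel, map_one, map_zero] at this
    exact hv this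
  have h2 : Nat.card G = Nat.card ({0}ᶜ : Set V) := by
    refine Nat.card_congr (Equiv.ofBijective (fun g => ⟨ρ g v, h1 g⟩) ⟨fun a b hab => ?_, ?_⟩)
    · have h3 : ρ a v = ρ b v := congrArg Subtype.val hab
      have h4 := hreg v hv (b⁻¹ * a) (by
        rw [map_mul, Module.End.mul_apply, h3, ← Module.End.mul_apply, ← map_mul, inv_mul_cancel,
          map_one, Module.End.one_apply])
      exact (inv_mul_eq_one.1 h4).symm
    · rintro ⟨w, hw⟩
      obtain ⟨g, hg⟩ := htrans v w hv hw
      exact ⟨g, Subtype.ext hg⟩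
  rw [h2, Nat.card_coe_set_eq, Set.ncard_compl, Set.ncard_singleton]

omit [Finite V] [Nontrivial V] in
theorem involution_unique (hρ : Function.Injective ρ)
    (hreg : ∀ v : V, v ≠ 0 → ∀ g : G, ρ g v = v → g = 1) {s t : G} (hs : s * s = 1)
    (hs1 : s ≠ 1) (ht : t * t = 1) : t = 1 ∨ t = s := by
  have key : ∀ t : G, t * t = 1 → t ≠ 1 → ∀ v, ρ t v = -v := by
    intro t ht ht1 v
    by_contra h
    apply ht1
    apply hreg (ρ t v + v) (fun h' => h (eq_neg_of_add_eq_zero_left h'))
    rw [map_add, ← Module.End.mul_apply, ← map_mul, ht, map_one, Module.End.one_apply, add_comm]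
  by_cases ht1 : t = 1
  · exact Or.inl ht1
  · right
    apply hρ
    ext v
    rw [key t ht ht1, key s hs hs1]

theorem semilin_of_three [Finite G] (hρ : Function.Injective ρ)
    (htrans : ∀ v w : V, v ≠ 0 → w ≠ 0 → ∃ g : G, ρ g v = w) (hq3 : q = 3)
    (hV : Nat.card V = q ^ 2) (hG : Nat.card G = 8) {M : Subgroup G} {f : G →* Equiv.Perm (Fin 3)}
    (hf : f.ker = M) (h1 : center G ≤ M) (h2 : (center G).relIndex M = 4)
    (h3 : ⁅M, M⁆ ≤ center G) (h4 : 2 ∣ Nat.card (center G)) : Semilin ρ := by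
  have h5 := card_mul_relIndex h1
  rw [h2] at h5
  have h6 := Nat.le_of_dvd Nat.card_pos h4
  have hM : M = ⊤ := eq_top_of_le_card _ (by omega)
  have h7 : ¬ M ≤ center G := by
    rw [← relIndex_eq_one]; omega
  obtain ⟨m, -, hm⟩ := SetLike.not_le_iff_exists.1 h7
  have hc : ∀ a ∈ zpowers m ⊔ center G, ∀ b ∈ zpowers m ⊔ center G, a * b = b * a :=
    comm_sup (comm_zpowers m) (fun a _ b hb => mem_center_iff.1 hb a)
      (fun a _ b hb => mem_center_iff.1 hb a)
  have : (zpowers m ⊔ center G).Normal := by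
    apply Normal.of_commutator_le
    rw [hM] at h3
    exact h3.trans le_sup_right
  apply semilin_of_card_le ρ hc htrans
  have hK := isFld_closure_of_normal ρ hc htrans
  obtain ⟨d, N, hd, hKd, -⟩ := hK.exists_card
  have h8 := hK.card_dvd ρ hρ _ (fun a ha => Subring.subset_closure ⟨a, ha, rfl⟩)
  rw [hKd] at h8 ⊢
  rw [hV]
  apply Nat.pow_le_pow_right hq.out.pos
  by_contra h9
  obtain rfl : d = 1 := by omega
  have h10 : center G < zpowers m ⊔ center G :=
    lt_of_le_of_ne le_sup_right (fun h => hm (h ▸ mem_sup_left (mem_zpowers m)))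
  have h11 := Nat.le_of_dvd (by rw [hq3]; norm_num) h8
  rw [hq3] at h11
  exact h10.ne (eq_of_le_of_card_ge h10.le (by omega))

theorem exists_sl23 [Finite G] {M : Subgroup G} [M.Normal] (h1 : center G ≤ M)
    (h2 : (center G).relIndex M = 4) (h3 : ⁅M, M⁆ ≤ center G)
    (h4 : centralizer (M : Set G) = center G)
    (h5 : Nat.card (center G) = 2 ∨ Nat.card (center G) = 10) (h6 : 3 ∣ Nat.card G)
    (huniq : ∀ s t : G, s * s = 1 → s ≠ 1 → t * t = 1 → t = 1 ∨ t = s) :
    ∃ φ : SL23 →* G, Function.Injective φ := by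
  have := Fact.mk Nat.prime_three
  obtain ⟨a, ha⟩ := exists_prime_orderOf_dvd_card' 3 h6
  obtain ⟨z, -, hz⟩ := exists_mem_orderOf_eq_of_dvd_card (H := center G) Nat.prime_two
    (by omega)
  have hz1 := ne_one_of_orderOf_eq_prime Nat.prime_two hz
  have hz2 : z * z = 1 := by rw [← sq, ← hz, pow_orderOf_eq_one]
  have h7 := card_mul_relIndex h1
  rw [h2] at h7
  obtain ⟨Q, hQ⟩ := exists_isSylowIn 2 M
  have hQ8 : Nat.card Q = 8 := by
    rw [hQ.card_eq, ← h7]
    rcases h5 with h | h <;> rw [h]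
    · rw [show (2 * 4 : ℕ).factorization 2 = 3 by decide +kernel]; rfl
    · rw [show (10 * 4 : ℕ).factorization 2 = 3 by decide +kernel]; rfl
  have hnil : Group.IsNilpotent M :=
    isNilpotent_of_commutator_le_centralizer (h3.trans (center_le_centralizer _))
  have hQn := hQ.normalizer_le (hQ.le_normalizer_of_isNilpotent hnil)
  have hMQ : Q ⊔ center G = M := by
    apply eq_of_le_of_card_ge (sup_le hQ.le h1)
    have h8 := card_dvd_of_le (le_sup_left : Q ≤ Q ⊔ center G)
    have h9 := card_dvd_of_le (le_sup_right : center G ≤ Q ⊔ center G)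
    have h10 : 0 < Nat.card ↥(Q ⊔ center G) := Nat.card_pos
    rw [hQ8] at h8
    rcases h5 with h | h <;> rw [h] at h7 h9 <;> omega
  have hcent : centralizer (Q : Set G) ≤ center G := by
    intro x hx
    rw [← h4, ← hMQ]
    have : Q ⊔ center G ≤ centralizer {x} := sup_le
      (fun y hy => mem_centralizer_singleton_iff.2 (hx y hy)) (center_le_centralizer _)
    exact fun y hy => mem_centralizer_singleton_iff.1 (this hy)
  obtain ⟨i, -, j, -, hi, hrel⟩ := exists_sl23Rel hz2 hz1 (fun t => huniq z t hz2 hz1) hQ8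
    (fun h => by
      have h8 : Q ≤ center G := fun x hx => hcent (fun y hy => h y hy x hx)
      have h9 := card_dvd_of_le h8
      rw [hQ8] at h9
      omega) (a := a) (by rw [← pow_three, ← ha, pow_orderOf_eq_one])
    (hQn (le_normalizer_of_normal' ⊤ M (mem_top a))) (fun h => by
      have h8 := orderOf_dvd_card_of_mem (hcent h)
      rw [ha] at h8
      omega)
  obtain ⟨φ, hφ, -⟩ := hrel.exists_injective_hom (hi ▸ hz1)
  exact ⟨φ, hφ⟩

theorem equiv_prod_of_central [Finite G] (φ : SL23 →* G) (hφ : Function.Injective φ)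
    (h5 : 5 ∣ Nat.card (center G)) (hG : Nat.card G = 120) :
    Nonempty (G ≃* SL23 × Multiplicative (ZMod 5)) := by
  have : Fact (Nat.Prime 5) := ⟨by norm_num⟩
  obtain ⟨c, hc, hc5⟩ := exists_mem_orderOf_eq_of_dvd_card (by norm_num) h5
  have h1 : Nat.card (zpowers c) = 5 := by rw [Nat.card_zpowers, hc5]
  let e : Multiplicative (ZMod 5) ≃* zpowers c := mulEquivOfPrimeCardEq (p := 5) (by simp) h1
  let ψ : Multiplicative (ZMod 5) →* G := (zpowers c).subtype.comp e.toMonoidHom
  have hψ : ∀ x, ψ x ∈ zpowers c := fun x => (e x).2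
  let χ := φ.noncommCoprod ψ (fun s x => mem_center_iff.1 (zpowers_le_of_mem hc (hψ x)) _)
  have hχ : Function.Injective χ := by
    rw [injective_iff_map_eq_one]
    rintro ⟨s, x⟩ h
    have h2 : φ s * ψ x = 1 := h
    have h3 : φ s = 1 := by
      refine eq_one_of_mem_of_coprime (H := φ.range) (K := zpowers c) ?_ ⟨s, rfl⟩ ?_
      · rw [h1]
        exact Nat.Coprime.coprime_dvd_left (card_range_dvd φ) (by rw [card_SL23]; norm_num)
      · rw [eq_inv_of_mul_eq_one_left h2]
        exact inv_mem (hψ x)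
    rw [h3, one_mul] at h2
    have h4 : e x = 1 := Subtype.ext h2
    rw [(injective_iff_map_eq_one φ).1 hφ s h3, (map_eq_one_iff e e.injective).1 h4]
    rfl
  exact ⟨(MulEquiv.ofBijective χ (hχ.bijective_of_nat_card_le (by
    rw [hG, Nat.card_prod, card_SL23]; simp))).symm⟩

end aux


/-- Let q be a prime and V a non-trivial finite vector space over the field with q elements, and let G be a finite solvable group acting faithfully and linearly on V and regularly on the non-zero vectors (transitively, with only the identity fixing a non-zero vector). Then either V can be identified with the additive group of a finite field F so that every element of G acts as x ↦ a·σ(x) (a ∈ F, σ a field automorphism), or V has 5^2, 7^2, 11^2 or 23^2 elements. Moreover, if q ≠ 2 then G has a normal subgroup of index 2, except that when V has 25 elements G may be isomorphic to SL(2,3) and when V has 121 elements G may be isomorphic to SL(2,3) × C₅. -/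
theorem result
    (q : ℕ) [Fact q.Prime] {V : Type*} [AddCommGroup V] [Module (ZMod q) V] [Finite V] [Nontrivial V]
    {G : Type*} [Group G] [Finite G] (hsol : Group.IsSolvable G)
    (ρ : G →* (V ≃ₗ[ZMod q] V)) (hρ : Function.Injective ρ)
    (htrans : ∀ v w : V, v ≠ 0 → w ≠ 0 → ∃ g : G, ρ g v = w)
    (hreg : ∀ v : V, v ≠ 0 → ∀ g : G, ρ g v = v → g = 1) :
    ((∃ (F : Type) (_ : Field F) (_ : Fintype F) (e : V ≃+ F),
        ∀ g : G, ∃ (a : F) (σ : F ≃+* F), ∀ v : V, e (ρ g v) = a * σ (e v)) ∨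
      Nat.card V ∈ ({25, 49, 121, 529} : Set ℕ)) ∧
    (q ≠ 2 → (∃ N : Subgroup G, N.Normal ∧ N.index = 2) ∨
      (Nat.card V = 25 ∧ Nonempty (G ≃* Matrix.SpecialLinearGroup (Fin 2) (ZMod 3))) ∨
      (Nat.card V = 121 ∧ Nonempty (G ≃* Matrix.SpecialLinearGroup (Fin 2) (ZMod 3) × Multiplicative (ZMod 5)))) := by
  have hρ' := toEndHom_injective hρ
  have hG := card_eq_of_regular (toEndHom ρ) htrans hreg
  have huniq : ∀ s t : G, s * s = 1 → s ≠ 1 → t * t = 1 → t = 1 ∨ t = s :=
    fun s t hs hs1 ht => involution_unique (toEndHom ρ) hρ' hreg hs hs1 ht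
  rcases semilin_or_cases (toEndHom ρ) hsol hρ' htrans with
    h | ⟨hV, M, f, hf, h1, h2, h3, h4, h5, h6, -⟩ | ⟨h1, h2⟩
  · exact ⟨Or.inl h, fun hq => Or.inl (index_two_of_semilin _ hq h htrans)⟩
  swap
  · rw [hG, h1] at h2
    norm_num at h2
  have hM : M.Normal := hf ▸ inferInstance
  have hq := add_one_dvd_of_structure (toEndHom ρ) htrans hV hf h1 h2 h5 h6
  by_cases hq3 : q = 3
  · have h := semilin_of_three _ hρ' htrans hq3 hV (by rw [hG, hV, hq3]; rfl) hf h1 h2 h4 h6
    exact ⟨Or.inl h, fun hq => Or.inl (index_two_of_semilin _ hq h htrans)⟩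
  refine ⟨Or.inr ?_, fun _ => ?_⟩
  · rcases hq with h | h | h | h | h
    · exact absurd h hq3
    all_goals simp [hV, h]
  obtain ⟨h7, h8⟩ := card_dvd_of_structure hf h1 h2
  by_cases h9 : 2 ∣ Nat.card f.range
  · left
    obtain ⟨_, ⟨g, rfl⟩, hg⟩ := exists_mem_orderOf_eq_of_dvd_card Nat.prime_two h9
    refine ⟨(Equiv.Perm.sign.comp f).ker, inferInstance, index_ker_eq_two _ ⟨g, ?_⟩⟩
    have key : ∀ σ : Equiv.Perm (Fin 3), σ * σ = 1 → σ ≠ 1 → Equiv.Perm.sign σ = -1 := by
      decide
    exact key _ (by rw [← sq, ← hg, pow_orderOf_eq_one])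
      (ne_one_of_orderOf_eq_prime Nat.prime_two hg)
  right
  have h10 : Nat.card f.range = 1 ∨ Nat.card f.range = 3 := by
    have := Nat.le_of_dvd (by norm_num) h8
    generalize Nat.card f.range = k at *
    interval_cases k <;> omega
  rw [hG, hV] at h7
  rcases hq with h | h | h | h | h
  · exact absurd h hq3
  · left
    rw [h] at h5 h7 hV
    have h11 := Nat.le_of_dvd (by norm_num) h5
    have h12 : Nat.card (center G) = 2 := by
      rcases h10 with h10 | h10 <;> rw [h10] at h7 <;> omega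
    rw [hV] at hG
    obtain ⟨φ, hφ⟩ := exists_sl23 h1 h2 h4 h3 (Or.inl h12) (by rw [hG]; norm_num) huniq
    exact ⟨hV, ⟨(MulEquiv.ofBijective φ (hφ.bijective_of_nat_card_le (by
      rw [hG, card_SL23]; norm_num))).symm⟩⟩
  · exfalso
    rw [h] at h5 h7
    have h11 := Nat.le_of_dvd (by norm_num) h5
    rcases h10 with h10 | h10 <;> rw [h10] at h7
    · omega
    · have h12 : Nat.card (center G) = 4 := by omega
      rw [h12] at h5
      norm_num at h5
  · right
    rw [h] at h5 h7 hV
    have h11 := Nat.le_of_dvd (by norm_num) h5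
    have h12 : Nat.card (center G) = 10 := by
      rcases h10 with h10 | h10 <;> rw [h10] at h7 <;> omega
    rw [hV] at hG
    obtain ⟨φ, hφ⟩ := exists_sl23 h1 h2 h4 h3 (Or.inr h12) (by rw [hG]; norm_num) huniq
    exact ⟨hV, equiv_prod_of_central φ hφ (by rw [h12]; norm_num) hG⟩
  · exfalso
    rw [h] at h5 h7
    have h11 := Nat.le_of_dvd (by norm_num) h5
    rcases h10 with h10 | h10 <;> rw [h10] at h7 <;> omega

end Cfsg.Agent.S3361
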