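import Cfsg.Statements.S3362
import Cfsg.Agent.Comp.M12x.Main

set_option autoImplicit false
open Cfsg

namespace Cfsg.Agent.S3362

open Cfsg.Agent.Comp Cfsg.Agent.Comp.M12x in
/-- the eight generators as a function of the index -/
def gens : ℕ → Equiv.Perm (Fin 12) := fun j => [
  Equiv.swap (3 : Fin 12) 5 * Equiv.swap (3 : Fin 12) 4 * Equiv.swap (6 : Fin 12) 8 * Equiv.swap (6 : Fin 12) 7 * Equiv.swap (9 : Fin 12) 11 * Equiv.swap (9 : Fin 12) 10,
  Equiv.swap (3 : Fin 12) 9 * Equiv.swap (3 : Fin 12) 6 * Equiv.swap (4 : Fin 12) 10 * Equiv.swap (4 : Fin 12) 7 * Equiv.swap (5 : Fin 12) 11 * Equiv.swap (5 : Fin 12) 8,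
  Equiv.swap (4 : Fin 12) 9 * Equiv.swap (4 : Fin 12) 5 * Equiv.swap (4 : Fin 12) 6 * Equiv.swap (7 : Fin 12) 10 * Equiv.swap (7 : Fin 12) 11 * Equiv.swap (7 : Fin 12) 8,
  Equiv.swap (4 : Fin 12) 11 * Equiv.swap (4 : Fin 12) 5 * Equiv.swap (4 : Fin 12) 7 * Equiv.swap (6 : Fin 12) 8 * Equiv.swap (6 : Fin 12) 9 * Equiv.swap (6 : Fin 12) 10,
  Equiv.swap (4 : Fin 12) 8 * Equiv.swap (4 : Fin 12) 5 * Equiv.swap (4 : Fin 12) 10 * Equiv.swap (6 : Fin 12) 7 * Equiv.swap (6 : Fin 12) 9 * Equiv.swap (6 : Fin 12) 11,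
  Equiv.swap (0 : Fin 12) 3 * Equiv.swap (6 : Fin 12) 7 * Equiv.swap (8 : Fin 12) 10 * Equiv.swap (9 : Fin 12) 11,
  Equiv.swap (0 : Fin 12) 1 * Equiv.swap (6 : Fin 12) 9 * Equiv.swap (7 : Fin 12) 10 * Equiv.swap (8 : Fin 12) 11,
  Equiv.swap (1 : Fin 12) 2 * Equiv.swap (6 : Fin 12) 11 * Equiv.swap (7 : Fin 12) 9 * Equiv.swap (8 : Fin 12) 10].getD j 1

open Cfsg.Agent.Comp Cfsg.Agent.Comp.M12x in
theorem model : J.Model (finLst 12 (by decide)) gens ⊤ where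
  hk := by decide
  hbl := by decide +kernel
  code := by decide +kernel
  act := by decide +kernel
  genA := fun _ _ => trivial
  base := fun g _ h => perm_base (by decide) (by decide +kernel) g h

open Cfsg.Agent.Comp Cfsg.Agent.Comp.M12x in
theorem G_eq : J.G gens = Subgroup.closure {gens 0, gens 1, gens 2, gens 3, gens 4, gens 5, gens 6, gens 7} := by
  unfold Job.G
  congr 1
  ext g
  constructor
  · rintro ⟨j, hj, rfl⟩
    have hj' : j < 8 := hj
    interval_cases j <;> simp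
  · intro hg
    simp only [Set.mem_insert_iff, Set.mem_singleton_iff] at hg
    rcases hg with rfl | rfl | rfl | rfl | rfl | rfl | rfl | rfl <;>
      exact ⟨_, by show _ < 8; omega, rfl⟩

open Cfsg.Agent.Comp Cfsg.Agent.Comp.M12x in
theorem el_eq (j : ℕ) (hj : j < 7) : J.el gens (8 + j) = gens j := by
  rw [Job.el_word hs (by show _ < 21; omega) (by show 8 ≤ _; omega)]
  have : nthW J.ws (8 + j) = [j] := by interval_cases j <;> rfl
  rw [this, wp, wp, one_mul, Job.el_gen (by show _ < 8; omega)]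

open Cfsg.Agent.Comp Cfsg.Agent.Comp.M12x in
theorem G1_eq : GpL (J.el gens) [L1, L2, L3, L4] =
    Subgroup.closure {gens 0, gens 1, gens 2, gens 3, gens 4, gens 5, gens 6} := by
  show Subgroup.closure (J.el gens '' {j | L1.lo ≤ j ∧ j < L1.lo + L1.ng}) = _
  refine congrArg Subgroup.closure ?_
  ext g
  constructor
  · rintro ⟨j, ⟨hj1, hj2⟩, rfl⟩
    have hj1' : 8 ≤ j := hj1
    have hj2' : j < 15 := hj2
    obtain ⟨i, rfl⟩ := Nat.exists_eq_add_of_le hj1'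
    have hi : i < 7 := by omega
    rw [el_eq i hi]
    interval_cases i <;> simp
  · intro hg
    simp only [Set.mem_insert_iff, Set.mem_singleton_iff] at hg
    rcases hg with rfl | rfl | rfl | rfl | rfl | rfl | rfl <;>
      exact ⟨_, ⟨by show 8 ≤ _; omega, by show _ < 15; omega⟩, el_eq _ (by omega)⟩

theorem sharp {G : Type*} [Group G] [MulAction G (Fin 12)] (hc : Nat.card G = 95040)
    (y0 : Fin 5 ↪ Fin 12) (hy : ∀ g : G, (∀ i, g • y0 i = y0 i) → g = 1) :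
    MulAction.IsMultiplyPretransitive G (Fin 12) 5 ∧
      ∀ (y : Fin 5 ↪ Fin 12) (g : G), (∀ i, g • y i = y i) → g = 1 := by
  have hy0 : MulAction.stabilizer G y0 = ⊥ := by
    rw [eq_bot_iff]
    intro g hg
    exact hy g fun i => congrArg (fun f : Fin 5 ↪ Fin 12 => f i) hg
  have horb : MulAction.orbit G y0 = Set.univ := by
    apply Set.eq_of_subset_of_ncard_le (Set.subset_univ _)
    have h1 := MulAction.index_stabilizer G y0
    rw [hy0, Subgroup.index_bot, hc] at h1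
    rw [← h1, Set.ncard_univ, Nat.card_eq_fintype_card, Fintype.card_embedding_eq]
    simp [Nat.descFactorial]
  have htr : MulAction.IsPretransitive G (Fin 5 ↪ Fin 12) :=
    (MulAction.isPretransitive_iff_orbit_eq_univ y0).2 horb
  refine ⟨htr, fun y g hg => ?_⟩
  obtain ⟨c, rfl⟩ := htr.exists_smul_eq y0 y
  have := hy (c⁻¹ * g * c) fun i => by
    have e : g • c • y0 i = c • y0 i := hg i
    rw [mul_smul, mul_smul, e, inv_smul_smul]
  have e2 : g = c * (c⁻¹ * g * c) * c⁻¹ := by group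
  rw [e2, this]; group

open Cfsg.Agent.Comp Cfsg.Agent.Comp.M12x in
/-- An explicit construction of the Mathieu groups of degrees 11 and 12. On the points 0, …, 11 let s = (3 4 5)(6 7 8)(9 10 11), t = (3 6 9)(4 7 10)(5 8 11), u = (4 6 5 9)(7 8 11 10), v = (4 7 5 11)(6 10 9 8), w = (4 10 5 8)(6 11 9 7), x₁ = (0 3)(6 7)(8 10)(9 11), x₂ = (0 1)(6 9)(7 10)(8 11), x₃ = (1 2)(6 11)(7 9)(8 10) (each written as a product of transpositions). Then the group M₁₂ generated by all eight permutations is sharply 5-transitive on the 12 points and has order 95040, and the group M₁₁ generated by the first seven has order 7920 and is the stabilizer of the point 2 in M₁₂. -/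
theorem result
    (s t u v w x₁ x₂ x₃ : Equiv.Perm (Fin 12))
    (hs : s = Equiv.swap (3 : Fin 12) 5 * Equiv.swap (3 : Fin 12) 4 * Equiv.swap (6 : Fin 12) 8 * Equiv.swap (6 : Fin 12) 7 * Equiv.swap (9 : Fin 12) 11 * Equiv.swap (9 : Fin 12) 10) (ht : t = Equiv.swap (3 : Fin 12) 9 * Equiv.swap (3 : Fin 12) 6 * Equiv.swap (4 : Fin 12) 10 * Equiv.swap (4 : Fin 12) 7 * Equiv.swap (5 : Fin 12) 11 * Equiv.swap (5 : Fin 12) 8)
    (hu : u = Equiv.swap (4 : Fin 12) 9 * Equiv.swap (4 : Fin 12) 5 * Equiv.swap (4 : Fin 12) 6 * Equiv.swap (7 : Fin 12) 10 * Equiv.swap (7 : Fin 12) 11 * Equiv.swap (7 : Fin 12) 8) (hv : v = Equiv.swap (4 : Fin 12) 11 * Equiv.swap (4 : Fin 12) 5 * Equiv.swap (4 : Fin 12) 7 * Equiv.swap (6 : Fin 12) 8 * Equiv.swap (6 : Fin 12) 9 * Equiv.swap (6 : Fin 12) 10) (hw : w = Equiv.swap (4 : Fin 12) 8 * Equiv.swap (4 : Fin 12) 5 * Equiv.swap (4 : Fin 12) 10 * Equiv.swap (6 : Fin 12) 7 * Equiv.swap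 (6 : Fin 12) 9 * Equiv.swap (6 : Fin 12) 11)
    (hx₁ : x₁ = Equiv.swap (0 : Fin 12) 3 * Equiv.swap (6 : Fin 12) 7 * Equiv.swap (8 : Fin 12) 10 * Equiv.swap (9 : Fin 12) 11) (hx₂ : x₂ = Equiv.swap (0 : Fin 12) 1 * Equiv.swap (6 : Fin 12) 9 * Equiv.swap (7 : Fin 12) 10 * Equiv.swap (8 : Fin 12) 11)
    (hx₃ : x₃ = Equiv.swap (1 : Fin 12) 2 * Equiv.swap (6 : Fin 12) 11 * Equiv.swap (7 : Fin 12) 9 * Equiv.swap (8 : Fin 12) 10)
    (M₁₂ M₁₁ : Subgroup (Equiv.Perm (Fin 12))) (hM₁₂ : M₁₂ = Subgroup.closure {s, t, u, v, w, x₁, x₂, x₃})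
    (hM₁₁ : M₁₁ = Subgroup.closure {s, t, u, v, w, x₁, x₂}) :
    MulAction.IsMultiplyPretransitive M₁₂ (Fin 12) 5 ∧ (∀ y : Fin 5 ↪ Fin 12, MulAction.stabilizer M₁₂ y = ⊥) ∧
    Nat.card M₁₂ = 95040 ∧ Nat.card M₁₁ = 7920 ∧
    M₁₁ = M₁₂ ⊓ MulAction.stabilizer (Equiv.Perm (Fin 12)) (2 : Fin 12) := by
  have e12 : M₁₂ = J.G gens := by
    rw [G_eq, hM₁₂, hs, ht, hu, hv, hw, hx₁, hx₂, hx₃]; rfl
  have e11 : M₁₁ = GpL (J.el gens) [L1, L2, L3, L4] := by
    rw [G1_eq, hM₁₁, hs, ht, hu, hv, hw, hx₁, hx₂]; rfl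
  have hc := chain0 model
  have c12 : Nat.card M₁₂ = 95040 := by rw [e12]; exact card model
  have c11 : Nat.card M₁₁ = 7920 := by rw [e11, hc.2.card]; rfl
  let y0 : Fin 5 ↪ Fin 12 := ⟨fun i => ⟨i.1, by omega⟩, fun i j e => Fin.ext (by simpa using e)⟩
  obtain ⟨h1, h2⟩ := sharp (G := M₁₂) c12 y0 (by
    rintro ⟨g, hg⟩ hy'
    have hg' : g ∈ GpL (J.el gens) [L0, L1, L2, L3, L4] := by rw [GpL_eq, ← e12]; exact hg
    have := hc.base g hg' (by
      intro L hL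
      simp only [List.mem_cons, List.not_mem_nil, or_false] at hL
      rcases hL with rfl | rfl | rfl | rfl | rfl
      · exact hy' 2
      · exact hy' 1
      · exact hy' 0
      · exact hy' 3
      · exact hy' 4)
    exact Subtype.ext this)
  refine ⟨h1, fun y => ?_, c12, c11, ?_⟩
  · rw [eq_bot_iff]
    intro g hg
    exact h2 y g fun i => congrArg (fun f : Fin 5 ↪ Fin 12 => f i) hg
  · ext g
    rw [e11, e12, ← GpL_eq, Subgroup.mem_inf]
    constructor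
    · intro hg
      exact ⟨hc.1.sub hg, (hc.1.stab g (hc.1.sub hg)).2 hg⟩
    · rintro ⟨h1, h2⟩
      exact (hc.1.stab g h1).1 h2

end Cfsg.Agent.S3362
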