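import Cfsg.Statements.S3370
import Cfsg.Agent.LinP.Half2

set_option autoImplicit false
open Cfsg

namespace Cfsg.Agent.S3370

open Cfsg.Agent.LinP Subgroup

/-- Let q be a prime, V a non-trivial finite vector space over the field with q elements, and G a non-trivial finite p-group (p prime) acting faithfully and linearly on V and transitively on the non-zero vectors. Then either q = 2 and G has prime order p = |V| − 1; or p = 2, V has q elements with q = 2^m + 1 and G is cyclic of order 2^m; or p = 2, q = 3, V has 9 elements and G is cyclic of order 8, quaternion of order 8, or semidihedral of order 16. -/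
theorem result (q : ℕ) [Fact q.Prime] {V : Type*} [AddCommGroup V] [Module (ZMod q) V] [Finite V] [Nontrivial V]
    {G : Type*} [Group G] [Finite G] [Nontrivial G] (p : ℕ) [Fact p.Prime] (hG : IsPGroup p G)
    (ρ : G →* (V ≃ₗ[ZMod q] V)) (hρ : Function.Injective ρ)
    (htrans : ∀ v w : V, v ≠ 0 → w ≠ 0 → ∃ g : G, ρ g v = w) :
    (q = 2 ∧ p = Nat.card V - 1 ∧ Nat.card G = p) ∨
    (p = 2 ∧ Nat.card V = q ∧ (∃ m : ℕ, q = 2 ^ m + 1 ∧ Nat.card G = 2 ^ m) ∧ IsCyclic G) ∨
    (p = 2 ∧ q = 3 ∧ Nat.card V = 9 ∧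
      ((IsCyclic G ∧ Nat.card G = 8) ∨ Nonempty (G ≃* QuaternionGroup 2) ∨ (Cfsg.IsQuasiDihedral G ∧ Nat.card G = 16))) := by
  have hp : p.Prime := Fact.out
  have hq : q.Prime := Fact.out
  have : Module.Finite (ZMod q) V := Module.Finite.of_finite
  have hidx : ∀ v : V, v ≠ 0 → (stab ρ v).index = Nat.card V - 1 := by
    intro v hv
    have : {u : V | ∃ g : G, ρ g v = u} = Set.univ \ {0} := by
      ext u
      constructor
      · rintro ⟨g, rfl⟩
        exact ⟨trivial, by simpa using hv⟩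
      · rintro ⟨-, hu⟩
        exact htrans v u hv hu
    rw [← card_orbit_eq_index, this, Nat.card_coe_set_eq,
      Set.ncard_sdiff_singleton_of_mem (by simp), Set.ncard_univ]
  have hhalf : ∀ v w : V, v ≠ 0 → w ≠ 0 → Nat.card (stab ρ v) = Nat.card (stab ρ w) := by
    intro v w hv hw
    have h1 := (stab ρ v).card_mul_index
    rw [← (stab ρ w).card_mul_index, hidx v hv, ← hidx w hw] at h1
    exact Nat.eq_of_mul_eq_mul_right (Nat.pos_of_ne_zero FiniteIndex.index_ne_zero) h1
  have hirr : ∀ W : Submodule (ZMod q) V, (∀ g : G, ∀ w ∈ W, ρ g w ∈ W) → W = ⊥ ∨ W = ⊤ := by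
    intro W hW
    by_cases h : W = ⊥
    · exact Or.inl h
    · right
      obtain ⟨w, hw, hw0⟩ := Submodule.exists_mem_ne_zero_of_ne_bot h
      rw [eq_top_iff]
      intro v _
      by_cases hv : v = 0
      · rw [hv]; exact W.zero_mem
      · obtain ⟨g, rfl⟩ := htrans w v hw0 hv
        exact hW g w hw
  obtain ⟨v₀, hv₀⟩ := exists_ne (0 : V)
  obtain ⟨k, hk⟩ := hG.index (stab ρ v₀)
  have hcG : Nat.card (stab ρ v₀) * (Nat.card V - 1) = Nat.card G := by
    rw [← hidx v₀ hv₀, Subgroup.card_mul_index]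
  rw [hidx v₀ hv₀] at hk
  set d := Module.finrank (ZMod q) V with hd
  have hcV : Nat.card V = q ^ d := by
    rw [Module.natCard_eq_pow_finrank (K := ZMod q), Nat.card_zmod]
  have hV1 : 1 < Nat.card V := Finite.one_lt_card
  have hd0 : 0 < d := Module.finrank_pos
  have hk0 : k ≠ 0 := by
    rintro rfl
    obtain ⟨g, hg⟩ := exists_ne (1 : G)
    apply hg
    apply eq_one_of_fx_eq_top ρ hρ
    rw [eq_top_iff]
    intro v _
    by_cases hv : v = 0
    · rw [hv]; exact Submodule.zero_mem _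
    · have h1 := hidx v hv
      rw [hk, pow_zero, Subgroup.index_eq_one] at h1
      have : g ∈ stab ρ v := h1 ▸ mem_top g
      exact this
  have hcyc : IsCyclic G → stab ρ v₀ = ⊥ := by
    intro h
    rw [eq_bot_iff]
    intro g hg
    by_contra hg1
    have hc : g ∈ center G := by
      rw [mem_center_iff]; intro x; exact (IsCyclic.isMulCommutative.is_comm.comm x g)
    have : v₀ ∈ fx ρ g := hg
    rw [fx_eq_bot_of_central ρ hρ hirr hc hg1] at this
    exact hv₀ this
  have h2 : ¬ HasNormalRank2 p G := by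
    intro h2
    obtain rfl := two_of_half ρ hG hρ hirr hhalf h2
    obtain ⟨c, H, W₀, W₁, -, -, -, hcompl, hb0, hb1, -, -, hin, hout⟩ := rank2_two ρ hG hρ hirr h2
    obtain ⟨e₀, he₀, he₀'⟩ := Submodule.exists_mem_ne_zero_of_ne_bot hb0
    obtain ⟨e₁, he₁, he₁'⟩ := Submodule.exists_mem_ne_zero_of_ne_bot hb1
    obtain ⟨g, hg⟩ := htrans e₀ (e₀ + e₁) he₀'
      (add_ne_zero_of_disjoint hcompl.disjoint he₀ he₁ he₀')
    by_cases hgH : g ∈ H
    · exact he₁' (fix_of_fix_add hcompl.disjoint he₀ he₁ ((hin g hgH).1 _ he₀) W₁.zero_mem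
        (by rw [add_zero, hg])).2.symm
    · exact he₀' (fix_of_fix_add hcompl.disjoint he₀ he₁ W₀.zero_mem ((hout g hgH).1 _ he₀)
        (by rw [zero_add, hg])).1.symm
  by_cases hq2 : q = 2
  · left
    subst hq2
    have h1 : p ^ k + 1 = 2 ^ d := by omega
    obtain rfl := eq_one_of_pow_add_one_eq_two_pow hp.one_lt hk0 h1
    rw [pow_one] at hk h1
    refine ⟨rfl, hk.symm, ?_⟩
    rcases cyclic_or_maxClass hG h2 with h | ⟨rfl, -⟩
    · rw [← hcG, hcyc h, hk]; simp
    · exfalso
      obtain ⟨d', hd'⟩ := Nat.exists_eq_succ_of_ne_zero hd0.ne'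
      rw [hd', pow_succ] at h1
      omega
  right
  have hp2 : p = 2 := by
    by_contra hp2
    obtain ⟨s, hs⟩ := (hp.odd_of_ne_two hp2).pow (n := k)
    obtain ⟨t, ht⟩ := (hq.odd_of_ne_two hq2).pow (n := d)
    omega
  subst hp2
  have hqd : q ^ d = 2 ^ k + 1 := by omega
  by_cases hd2 : 2 ≤ d
  · right
    obtain ⟨h3, h4⟩ := eq_three_of_pow_eq_two_pow_add_one hd2 hqd
    subst h3
    rw [h4] at hcV
    refine ⟨rfl, rfl, hcV, ?_⟩
    rw [hcV] at hcG
    rcases cyclic_or_maxClass hG h2 with h | ⟨-, n, a, b, h⟩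
    · left
      rw [← hcG, hcyc h]; simp [h]
    · right
      have hc := h.card
      rcases maxClass_case ρ h hρ hirr hhalf with ⟨h1, h5⟩ | ⟨h5, h1, h3⟩
      · left
        rw [h1 v₀ hv₀, hc] at hcG
        have : 2 ^ 3 = 2 ^ (n + 3) := by simpa using hcG
        have := Nat.pow_right_injective le_rfl this
        obtain rfl : n = 0 := by omega
        exact h5
      · right
        rw [h5 v₀ hv₀, hc] at hcG
        have : 2 ^ 4 = 2 ^ (n + 3) := by simpa using hcG
        have := Nat.pow_right_injective le_rfl this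
        obtain rfl : n = 1 := by omega
        rcases h3 with ⟨h3, -⟩ | ⟨-, h3⟩
        · norm_num at h3
        · exact ⟨h3, hc⟩
  left
  have hd1 : d = 1 := by omega
  rw [hd1, pow_one] at hcV hqd
  have hsp := (finrank_eq_one_iff_of_nonzero' v₀ hv₀).1 (hd ▸ hd1)
  have hc : IsCyclic G := by
    rcases cyclic_or_maxClass hG h2 with h | ⟨-, n, a, b, h⟩
    · exact h
    · exfalso
      apply h.conj_ne
      rw [mul_inv_eq_iff_eq_mul]
      apply hρ
      ext v
      obtain ⟨t, rfl⟩ := hsp v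
      obtain ⟨x, hx⟩ := hsp (ρ a v₀)
      obtain ⟨y, hy⟩ := hsp (ρ b v₀)
      simp only [map_smul, rho_mul, ← hx, ← hy, smul_smul, mul_comm]
  refine ⟨rfl, hcV, ⟨k, hqd, ?_⟩, hc⟩
  rw [← hcG, hcyc hc, hk]; simp

end Cfsg.Agent.S3370
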