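import Cfsg.Statements.S3371
import Cfsg.Agent.LinP.Half2

set_option autoImplicit false
open Cfsg

namespace Cfsg.Agent.S3371

open Cfsg.Agent.LinP Subgroup

theorem semiregular {F : Type*} [Field F] {V : Type*} [AddCommGroup V] [Module F V] [Finite V]
    [Nontrivial V] {G : Type*} [Group G] [Finite G] (p : ℕ) [hp : Fact p.Prime] (hG : IsPGroup p G)
    (ρ : G →* (V ≃ₗ[F] V)) (hs : ∀ v, v ≠ 0 → stab ρ v = ⊥) :
    IsCyclic G ∨ ∃ n : ℕ, Nonempty (G ≃* QuaternionGroup n) := by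
  have hfx : ∀ x : G, x ≠ 1 → fx ρ x = ⊥ := by
    intro x hx
    rw [eq_bot_iff]
    intro v hv
    by_contra hv0
    have : x ∈ stab ρ v := hv
    rw [hs v hv0] at this
    exact hx this
  have key : ∀ z c : G, orderOf z = p → c ^ p = 1 → c ∈ zpowers z := by
    intro z c hz hc
    have hz1 : z ≠ 1 := by rintro rfl; rw [orderOf_one] at hz; exact hp.out.ne_one hz.symm
    obtain ⟨x, -, hx, hxc⟩ := exists_central_of_normal hG ⊤ (by
      intro h
      have : z ∈ (⊤ : Subgroup G) := mem_top z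
      rw [h] at this; exact hz1 this)
    have hx1 : x ≠ 1 := by rintro rfl; rw [orderOf_one] at hx; exact hp.out.ne_one hx.symm
    have hpF : (p : F) ≠ 0 := char_ne_of_irreducible ρ hG (hfx x hx1)
    have h1 : ∀ y : G, y ^ p = 1 → y ∈ zpowers x := by
      intro y hy
      obtain ⟨i, hi⟩ := exists_fx_ne_bot ρ hpF hx (hfx x hx1) (mem_center_iff.1 hxc y).symm hy
      have : zmodPow x i * y = 1 := by
        by_contra h; exact hi (hfx _ h)
      rw [mul_eq_one_iff_inv_eq] at this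
      rw [← this]; exact inv_mem (zmodPow_mem x i)
    have h2 := mem_zpowers_of_prime_order hx (h1 z (by rw [← hz, pow_orderOf_eq_one])) hz1
    exact zpowers_le_of_mem h2 (h1 c hc)
  rcases cyclic_or_quaternion hG key with h | ⟨-, n, h⟩
  · exact Or.inl h
  · exact Or.inr ⟨_, h⟩

/-- Let q be a prime, V a non-trivial finite vector space over the field with q elements, and G a finite p-group (p prime) acting faithfully and linearly on V such that all G-orbits on the non-zero vectors have the same size. Then one of the following holds: G is cyclic or generalized quaternion and acts semiregularly on the non-zero vectors; or V has q² elements with q = 2^m − 1 and G is dihedral of order 2^(m+1) or semidihedral of order 2^(m+2); or V has q² elements with q = 2^m + 1 and, in suitable coordinates V = F_q², G is exactly the group of maps (x, y) ↦ (a x, ± a⁻¹ y) and (x, y) ↦ (± a⁻¹ y, a x) with a ≠ 0; or V has 81 elements (q = 3) and G is a 2-group. -/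
theorem result (q : ℕ) [Fact q.Prime] {V : Type*} [AddCommGroup V] [Module (ZMod q) V] [Finite V] [Nontrivial V]
    {G : Type*} [Group G] [Finite G] (p : ℕ) [Fact p.Prime] (hG : IsPGroup p G)
    (ρ : G →* (V ≃ₗ[ZMod q] V)) (hρ : Function.Injective ρ)
    (hhalf : ∀ v w : V, v ≠ 0 → w ≠ 0 → Nat.card {u : V | ∃ g : G, ρ g v = u} = Nat.card {u : V | ∃ g : G, ρ g w = u}) :
    ((IsCyclic G ∨ ∃ n : ℕ, Nonempty (G ≃* QuaternionGroup n)) ∧ ∀ v : V, v ≠ 0 → ∀ g : G, ρ g v = v → g = 1) ∨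
    (Nat.card V = q ^ 2 ∧ ∃ m : ℕ, q = 2 ^ m - 1 ∧
      (Nonempty (G ≃* DihedralGroup (2 ^ m)) ∨ (Cfsg.IsQuasiDihedral G ∧ Nat.card G = 2 ^ (m + 2)))) ∨
    (Nat.card V = q ^ 2 ∧ (∃ m : ℕ, q = 2 ^ m + 1) ∧
      ∃ e : V ≃ₗ[ZMod q] (Fin 2 → ZMod q), ∀ f : (Fin 2 → ZMod q) ≃ₗ[ZMod q] (Fin 2 → ZMod q),
        (∃ g : G, f = e.symm.trans ((ρ g).trans e)) ↔
        ∃ a s : ZMod q, a ≠ 0 ∧ (s = 1 ∨ s = -1) ∧
          ((∀ v, f v = ![a * v 0, s * a⁻¹ * v 1]) ∨ (∀ v, f v = ![s * a⁻¹ * v 1, a * v 0]))) ∨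
    (Nat.card V = 81 ∧ q = 3 ∧ p = 2) := by
  have hhalf' : ∀ v w : V, v ≠ 0 → w ≠ 0 → Nat.card (stab ρ v) = Nat.card (stab ρ w) := by
    intro v w hv hw
    have h := hhalf v w hv hw
    rw [card_orbit_eq_index, card_orbit_eq_index] at h
    have h1 := (stab ρ v).card_mul_index
    rw [← (stab ρ w).card_mul_index, h] at h1
    exact Nat.eq_of_mul_eq_mul_right (Nat.pos_of_ne_zero FiniteIndex.index_ne_zero) h1
  by_cases hs : ∀ v, v ≠ 0 → stab ρ v = ⊥
  · left
    refine ⟨semiregular p hG ρ hs, fun v hv g hg => ?_⟩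
    have : g ∈ stab ρ v := hg
    rwa [hs v hv] at this
  right
  push Not at hs
  obtain ⟨v₀, hv₀, hs⟩ := hs
  have hpF : (p : ZMod q) ≠ 0 := by
    intro h
    obtain ⟨v, hv, hv'⟩ := exists_fixed_vector ρ hG h
    apply hs
    have h1 : stab ρ v = ⊤ := eq_top_iff.2 fun g _ => hv' g
    rw [eq_bot_iff]
    intro g _
    rw [mem_bot]
    apply eq_one_of_fx_eq_top ρ hρ
    rw [eq_top_iff]
    intro w _
    by_cases hw : w = 0
    · rw [hw]; exact Submodule.zero_mem _
    · have h2 := hhalf' w v hw hv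
      rw [h1, Subgroup.card_top, Subgroup.card_eq_iff_eq_top] at h2
      have : g ∈ stab ρ w := h2 ▸ mem_top g
      exact this
  have hcard : (Nat.card G : ZMod q) ≠ 0 := by
    obtain ⟨k, hk⟩ := hG.exists_card_eq
    rw [hk]; push_cast; exact pow_ne_zero _ hpF
  have hirr := irreducible_of_half ρ hρ hcard hhalf' hv₀ hs
  by_cases h2 : HasNormalRank2 p G
  · obtain rfl := two_of_half ρ hG hρ hirr hhalf' h2
    rcases rank2_half ρ hG hρ hirr hhalf' h2 with h | h
    · exact Or.inr (Or.inl h)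
    · exact Or.inr (Or.inr ⟨h.1, h.2, rfl⟩)
  left
  rcases cyclic_or_maxClass hG h2 with h | ⟨rfl, n, a, b, h⟩
  · exfalso
    apply hs
    rw [eq_bot_iff]
    intro g hg
    by_contra hg1
    have hc : g ∈ center G := by
      rw [mem_center_iff]; intro x; exact (IsCyclic.isMulCommutative.is_comm.comm x g)
    have : v₀ ∈ fx ρ g := hg
    rw [fx_eq_bot_of_central ρ hρ hirr hc hg1] at this
    exact hv₀ this
  · rcases maxClass_case ρ h hρ hirr hhalf' with ⟨h1, -⟩ | ⟨-, h1, ⟨h3, h4⟩ | ⟨h3, h4⟩⟩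
    · exact absurd (h1 v₀ hv₀) hs
    · exact ⟨h1, n + 2, by omega, Or.inl h4⟩
    · exact ⟨h1, n + 1, by omega, Or.inr ⟨h4, h.card⟩⟩

end Cfsg.Agent.S3371
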