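import Cfsg.Statements.S3375


set_option autoImplicit false
open Cfsg

namespace Cfsg.Agent.S3375

/-- Let γ be an automorphism of order 2 of a finite group H. (i) If γ fixes only the identity, then H is abelian and γ inverts every element. (ii) If γ has exactly two fixed points and H has a subgroup of index 2, then H has a γ-invariant abelian subgroup of index 2 on which γ acts by inversion. -/
theorem result {H : Type*} [Group H] [Finite H] (γ : MulAut H) (hγ : orderOf γ = 2) :
    ((∀ h : H, γ h = h → h = 1) → (∀ a b : H, a * b = b * a) ∧ ∀ h : H, γ h = h⁻¹) ∧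
    ((Nat.card {h : H // γ h = h} = 2 ∧ ∃ M : Subgroup H, M.index = 2) →
      ∃ A : Subgroup H, A.index = 2 ∧ IsMulCommutative A ∧ (∀ a ∈ A, γ a ∈ A) ∧ ∀ a ∈ A, γ a = a⁻¹) := by
  have hγ2 : ∀ h, γ (γ h) = h := by
    intro h
    have := pow_orderOf_eq_one γ
    rw [hγ, pow_two] at this
    exact DFunLike.congr_fun this h
  constructor
  · intro hfix
    have hf : MonoidHom.FixedPointFree γ := hfix
    exact ⟨fun a b => hf.commute_all_of_involutive hγ2 a b,
      fun h => congrFun (hf.coe_eq_inv_of_involutive hγ2) h⟩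
  rintro ⟨hcard, M, hM⟩
  obtain ⟨A, hA, hinv⟩ : ∃ A : Subgroup H, A.index = 2 ∧ ∀ h, h ∈ A ↔ γ h ∈ A := by
    let A : Subgroup H :=
      { carrier := {h | h ∈ M ↔ γ h ∈ M}
        one_mem' := by simp
        mul_mem' := fun {a b} ha hb => by
          simp only [Set.mem_ofPred_eq, map_mul, Subgroup.mul_mem_iff_of_index_two hM] at ha hb ⊢
          rw [ha, hb]
        inv_mem' := fun {a} ha => by simpa using ha }
    have hA : ∀ h, h ∈ A ↔ (h ∈ M ↔ γ h ∈ M) := fun h => Iff.rfl
    by_cases h : ∀ h, h ∈ M ↔ γ h ∈ M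
    · exact ⟨M, hM, h⟩
    · push Not at h
      obtain ⟨a, ha⟩ := h
      refine ⟨A, ?_, ?_⟩
      · rw [Subgroup.index_eq_two_iff_exists_notMem_and]
        refine ⟨a, by rw [hA]; tauto, fun b => ?_⟩
        simp only [hA, map_mul, Subgroup.mul_mem_iff_of_index_two hM]
        tauto
      · intro h
        rw [hA, hA, hγ2]
        tauto
  let f : H → A := fun g => ⟨g⁻¹ * γ g, by
    rw [Subgroup.mul_mem_iff_of_index_two hA, inv_mem_iff]; exact hinv g⟩
  have hsurj : Function.Surjective f := by
    let s : Set.range f → H := fun y => y.2.choose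
    have hs : ∀ y, f (s y) = y.1 := fun y => y.2.choose_spec
    let e : H → Set.range f × {h : H // γ h = h} := fun g =>
      (⟨f g, g, rfl⟩, ⟨g * (s ⟨f g, g, rfl⟩)⁻¹, by
        have := congrArg Subtype.val (hs ⟨f g, g, rfl⟩)
        simp only [f] at this
        rw [map_mul, map_inv]
        generalize s ⟨f g, g, rfl⟩ = u at this
        calc γ g * (γ u)⁻¹ = g * (g⁻¹ * γ g) * (γ u)⁻¹ := by group
          _ = g * u⁻¹ := by rw [← this]; group⟩)
    have he : Function.Injective e := by
      intro g g' h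
      have h1 : (⟨f g, g, rfl⟩ : Set.range f) = ⟨f g', g', rfl⟩ := congrArg Prod.fst h
      have h2 : g * (s ⟨f g, g, rfl⟩)⁻¹ = g' * (s ⟨f g', g', rfl⟩)⁻¹ :=
        congrArg (fun z => z.2.1) h
      rw [h1] at h2
      exact mul_right_cancel h2
    have h1 := Nat.card_le_card_of_injective e he
    rw [Nat.card_prod, hcard, ← A.card_mul_index, hA] at h1
    rw [← Set.range_eq_univ]
    apply Set.eq_of_subset_of_ncard_le (Set.subset_univ _)
    rw [Set.ncard_univ, ← Nat.card_coe_set_eq]
    omega
  have hinvert : ∀ a ∈ A, γ a = a⁻¹ := by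
    intro a ha
    obtain ⟨g, hg⟩ := hsurj ⟨a, ha⟩
    have : g⁻¹ * γ g = a := congrArg Subtype.val hg
    rw [← this, map_mul, map_inv, hγ2]
    group
  refine ⟨A, hA, ?_, fun a ha => (hinv a).1 ha, hinvert⟩
  apply IsMulCommutative.of_setLike_mul_comm
  intro a ha b hb
  have := hinvert _ (A.mul_mem ha hb)
  rw [map_mul, hinvert a ha, hinvert b hb, ← mul_inv_rev, inv_inj] at this
  exact this.symm

end Cfsg.Agent.S3375
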