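import Cfsg.Statements.S3377
import Cfsg.Agent.Pres.A5

set_option autoImplicit false
open Cfsg

namespace Cfsg.Agent.S3377

/-- The alternating group of degree 5 has the presentation ⟨x, y | x³ = 1, y⁵ = 1, (xy)² = 1⟩: the group so presented is isomorphic to Alt(5). -/
theorem result :
    Nonempty (PresentedGroup ({FreeGroup.of (0 : Fin 2) ^ 3, FreeGroup.of (1 : Fin 2) ^ 5,
        (FreeGroup.of (0 : Fin 2) * FreeGroup.of 1) ^ 2} : Set (FreeGroup (Fin 2))) ≃* alternatingGroup (Fin 5)) := by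
  set R : Set (FreeGroup (Fin 2)) := {FreeGroup.of (0 : Fin 2) ^ 3, FreeGroup.of (1 : Fin 2) ^ 5,
        (FreeGroup.of (0 : Fin 2) * FreeGroup.of 1) ^ 2} with hR
  obtain ⟨φ, hx, hy⟩ := Pres.exists_hom_a5 (H := PresentedGroup R) (PresentedGroup.of 0)
    (PresentedGroup.of 1) (PresentedGroup.one_of_mem (rels := R) (Or.inl rfl))
    (PresentedGroup.one_of_mem (rels := R) (Or.inr (Or.inl rfl)))
    (PresentedGroup.one_of_mem (rels := R) (Or.inr (Or.inr rfl)))
  have hl : ∀ r ∈ R, FreeGroup.lift ![Pres.a5x, Pres.a5y] r = 1 := by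
    rintro r (rfl | rfl | rfl)
    · simpa using Pres.a5x_cube
    · simpa using Pres.a5y_pow
    · simpa using Pres.a5xy_sq
  let ψ := PresentedGroup.toGroup hl
  have h0 : ψ (PresentedGroup.of 0) = Pres.a5x := PresentedGroup.toGroup.of hl
  have h1 : ψ (PresentedGroup.of 1) = Pres.a5y := PresentedGroup.toGroup.of hl
  refine ⟨MonoidHom.toMulEquiv ψ φ ?_ ?_⟩
  · apply PresentedGroup.ext
    intro i
    fin_cases i
    · exact (congrArg φ h0).trans hx
    · exact (congrArg φ h1).trans hy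
  · apply MonoidHom.eq_of_eqOn_dense Pres.a5_closure
    rintro _ (rfl | rfl)
    · exact (congrArg ψ hx).trans h0
    · exact (congrArg ψ hy).trans h1

end Cfsg.Agent.S3377
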