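import Cfsg.Statements.S3380
import Cfsg.Agent.LinP.NormalRank
import Cfsg.Agent.LinP.Lin

set_option autoImplicit false
open Cfsg

namespace Cfsg.Agent.S3380

open Cfsg.Agent.LinP Subgroup

theorem aux {F : Type*} [Field F] {V : Type*} [AddCommGroup V] [Module F V] [Finite V] [Nontrivial V]
    {G : Type*} [Group G] [Finite G] (p : ℕ) [hp : Fact p.Prime] (hG : IsPGroup p G)
    (ρ : G →* (V ≃ₗ[F] V)) (hρ : Function.Injective ρ)
    (hirr : ∀ W : Submodule F V, (∀ g : G, ∀ w ∈ W, ρ g w ∈ W) → W = ⊥ ∨ W = ⊤)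
    (h2 : HasNormalRank2 p G) :
    ∃ (H : Subgroup G) (W : ZMod p → Submodule F V), H.index = p ∧
      iSup W = ⊤ ∧ iSupIndep W ∧
      (∀ h ∈ H, ∀ i, ∀ w ∈ W i, ρ h w ∈ W i) ∧
      (∀ i, ∃ h ∈ H, h ≠ 1 ∧ ∀ w ∈ W i, ρ h w = w) ∧
      ∀ g : G, g ∉ H → ∃ σ : Equiv.Perm (ZMod p), orderOf σ = p ∧
        ∀ i, (W i).map (ρ g : V →ₗ[F] V) = W (σ i) := by
  obtain ⟨z, c, hzc, hz, hc, hcz, hcomm⟩ := h2
  have hz1 : z ≠ 1 := by rintro rfl; rw [orderOf_one] at hz; exact hp.out.ne_one hz.symm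
  have hfz : fx ρ z = ⊥ := fx_eq_bot_of_central ρ hρ hirr hzc hz1
  have hpF : (p : F) ≠ 0 := by
    intro h
    obtain ⟨v, hv, hv'⟩ := exists_fixed_vector ρ hG h
    have : v ∈ fx ρ z := hv' z
    rw [hfz] at this
    exact hv this
  have hzc' : Commute z c := (mem_center_iff.1 hzc c).symm
  have hle : zpowers z ≤ center G := zpowers_le_of_mem hzc
  have hne1 : ∀ i : ZMod p, zmodPow z i * c ≠ 1 := by
    intro i h
    apply hcz
    rw [mul_eq_one_iff_inv_eq] at h
    rw [← h]; exact inv_mem (zmodPow_mem z i)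
  have hcc : c ∉ center G := by
    intro h
    obtain ⟨i, hi⟩ := exists_fx_ne_bot ρ hpF hz hfz hzc' hc
    exact hi (fx_eq_bot_of_central ρ hρ hirr (mul_mem (hle (zmodPow_mem z i)) h) (hne1 i))
  refine ⟨centralizer {c}, fun i => fx ρ (zmodPow z i * c), index_centralizer_eq hzc hz hcomm hcc,
    iSup_fx_eq_top ρ hpF hz hfz hzc' hc, iSupIndep_fx ρ hpF hz hfz hzc', ?_, ?_, ?_⟩
  · intro h hh i w hw
    apply rho_mem_fx_of_commute ρ _ hw
    rw [mem_centralizer_singleton_iff] at hh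
    rw [← mul_assoc, mem_center_iff.1 (hle (zmodPow_mem z i)) h, mul_assoc, hh, mul_assoc]
  · intro i
    refine ⟨zmodPow z i * c, ?_, hne1 i, fun w hw => hw⟩
    rw [mem_centralizer_singleton_iff, ← mul_assoc, mem_center_iff.1 (hle (zmodPow_mem z i)) c]
  · intro g hg
    obtain ⟨k, hk⟩ := exists_zmodPow_eq hz (hcomm g)
    have hk0 : k ≠ 0 := by
      rintro rfl
      apply hg
      rw [(zmodPow_eq_one_iff hz 0).2 rfl, eq_comm, mul_inv_eq_one, mul_inv_eq_iff_eq_mul] at hk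
      exact mem_centralizer_singleton_iff.2 hk
    refine ⟨Equiv.addRight k, ?_, fun i => ?_⟩
    · apply orderOf_eq_prime
      · ext x
        simp [Equiv.Perm.coe_pow]
      · intro h
        have := congrArg (fun σ : Equiv.Perm (ZMod p) => σ 0) h
        exact hk0 (by simpa using this)
    · change _ = fx ρ (zmodPow z (i + k) * c)
      rw [map_fx, zmodPow_add hz, hk]
      congr 1
      rw [← mul_assoc, mem_center_iff.1 (hle (zmodPow_mem z i)) g]
      group

/-- Let a finite p-group G act faithfully and irreducibly on a non-trivial finite vector space V over the field with q elements (q prime), and suppose G is not cyclic, generalized quaternion, dihedral or semidihedral. Then G has a subgroup H of index p and V is the direct sum of p subspaces, each invariant under H, on none of which H acts faithfully, and which every element of G outside H permutes in a single p-cycle. -/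
theorem result
    (q : ℕ) [Fact q.Prime] {V : Type*} [AddCommGroup V] [Module (ZMod q) V] [Finite V] [Nontrivial V]
    {G : Type*} [Group G] [Finite G] (p : ℕ) [Fact p.Prime] (hG : IsPGroup p G)
    (ρ : G →* (V ≃ₗ[ZMod q] V)) (hρ : Function.Injective ρ)
    (hirr : ∀ W : Submodule (ZMod q) V, (∀ g : G, ∀ w ∈ W, ρ g w ∈ W) → W = ⊥ ∨ W = ⊤)
    (hnc : ¬ IsCyclic G) (hnq : ∀ n : ℕ, ¬ Nonempty (G ≃* QuaternionGroup n))
    (hnd : ∀ n : ℕ, ¬ Nonempty (G ≃* DihedralGroup n)) (hnsd : ¬ Cfsg.IsQuasiDihedral G) :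
    ∃ (H : Subgroup G) (W : Fin p → Submodule (ZMod q) V), H.index = p ∧
      iSup W = ⊤ ∧ iSupIndep W ∧
      (∀ h ∈ H, ∀ i, ∀ w ∈ W i, ρ h w ∈ W i) ∧
      (∀ i, ∃ h ∈ H, h ≠ 1 ∧ ∀ w ∈ W i, ρ h w = w) ∧
      ∀ g : G, g ∉ H → ∃ σ : Equiv.Perm (Fin p), orderOf σ = p ∧ ∀ i, (W i).map (ρ g : V →ₗ[ZMod q] V) = W (σ i) := by
  have h2 : HasNormalRank2 p G := by
    by_contra h
    rcases normal_rank_one hG h with h | ⟨-, ⟨n, h⟩ | ⟨n, h⟩ | h⟩
    · exact hnc h
    · exact hnd _ h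
    · exact hnq _ h
    · exact hnsd h
  have := aux p hG ρ hρ hirr h2
  obtain ⟨p', rfl⟩ := Nat.exists_eq_succ_of_ne_zero (Fact.out : p.Prime).ne_zero
  exact this

end Cfsg.Agent.S3380
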