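import Cfsg.Statements.S3382

set_option autoImplicit false
open Cfsg

namespace Cfsg.Agent.S3382

section abstract

variable {P : Type*} [Group P]

theorem fix_of_fix (hP : IsPGroup 2 P) {α : MulAut P} (hα : Odd (orderOf α)) {x : P}
    (h : α (x⁻¹ * α x) = x⁻¹ * α x) : α x = x := by
  set n := x⁻¹ * α x with hn
  have h1 : ∀ k : ℕ, (α ^ k) x = x * n ^ k := by
    intro k
    induction k with
    | zero => simp
    | succ k ih =>
      rw [pow_succ', MulAut.mul_apply, ih, map_mul, map_pow, h, pow_succ', ← mul_assoc]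
      congr 1
      rw [hn]; group
  have h2 := h1 (orderOf α)
  rw [pow_orderOf_eq_one, MulAut.one_apply, left_eq_mul, ← orderOf_dvd_iff_pow_eq_one] at h2
  have h3 : (orderOf n).Coprime (orderOf α) :=
    hP.orderOf_coprime (Nat.coprime_two_left.2 hα) n
  have h4 : n = 1 := orderOf_eq_one_iff.1 (Nat.Coprime.eq_one_of_dvd h3 h2)
  rw [hn, inv_mul_eq_one] at h4
  exact h4.symm

theorem eq_one_of_chain (hP : IsPGroup 2 P) {α : MulAut P} (hα : Odd (orderOf α))
    (D : Subgroup P) (hcomm : ∀ x ∈ D, ∀ y ∈ D, x * y = y * x)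
    (hidx : ∀ x y, x ∉ D → y ∉ D → x * y ∈ D) (hinv : ∀ x, α x ∈ D ↔ x ∈ D)
    (hfix : ∀ x ∈ D, x * x = 1 → α x = x) : α = 1 := by
  have h1 : ∀ k : ℕ, ∀ x ∈ D, x ^ 2 ^ k = 1 → α x = x := by
    intro k
    induction k with
    | zero => intro x _ hx; simp at hx; simp [hx]
    | succ k ih =>
      intro x hx hxk
      have h2 : α (x * x) = x * x := ih _ (D.mul_mem hx hx) (by
        rw [← pow_two, ← pow_mul, ← pow_succ', hxk])
      apply fix_of_fix hP hα
      have hαx := (hinv x).2 hx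
      apply hfix _ (D.mul_mem (D.inv_mem hx) hαx)
      rw [map_mul] at h2
      rw [mul_assoc, ← mul_assoc (α x), hcomm _ hαx _ (D.inv_mem hx), mul_assoc, h2]
      group
  have h2 : ∀ x ∈ D, α x = x := fun x hx => by
    obtain ⟨k, hk⟩ := hP x
    exact h1 k x hx hk
  ext x
  by_cases hx : x ∈ D
  · exact h2 x hx
  · apply fix_of_fix hP hα
    apply h2
    exact hidx _ _ (by rwa [D.inv_mem_iff]) (by rwa [hinv])

theorem isPGroup_of_odd {H : Type*} [Group H] [Finite H]
    (h : ∀ α : H, Odd (orderOf α) → α = 1) : IsPGroup 2 H := by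
  intro α
  obtain ⟨k, m, hm, hkm⟩ := Nat.exists_eq_two_pow_mul_odd (orderOf_pos α).ne'
  refine ⟨k, h _ ?_⟩
  rw [orderOf_pow' _ (by positivity), hkm, Nat.gcd_mul_right_left,
    Nat.mul_div_cancel_left _ (by positivity)]
  exact hm

end abstract

section concrete

variable {F : Type*} [Field F]

def IsDg (f : (Fin 2 → F) ≃ₗ[F] (Fin 2 → F)) (a b : F) : Prop := ∀ v, f v = ![a * v 0, b * v 1]

def IsAd (f : (Fin 2 → F) ≃ₗ[F] (Fin 2 → F)) (a b : F) : Prop := ∀ v, f v = ![b * v 1, a * v 0]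

variable {f g : (Fin 2 → F) ≃ₗ[F] (Fin 2 → F)} {a b c d : F}

theorem IsDg.mul (hf : IsDg f a b) (hg : IsDg g c d) : IsDg (f * g) (a * c) (b * d) := by
  intro v; rw [LinearEquiv.mul_apply, hg, hf]; simp [mul_assoc]

theorem IsDg.mul_ad (hf : IsDg f a b) (hg : IsAd g c d) : IsAd (f * g) (b * c) (a * d) := by
  intro v; rw [LinearEquiv.mul_apply, hg, hf]; simp [mul_assoc]

theorem IsAd.mul_dg (hf : IsAd f a b) (hg : IsDg g c d) : IsAd (f * g) (a * c) (b * d) := by
  intro v; rw [LinearEquiv.mul_apply, hg, hf]; simp [mul_assoc]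

theorem IsAd.mul (hf : IsAd f a b) (hg : IsAd g c d) : IsDg (f * g) (b * c) (a * d) := by
  intro v; rw [LinearEquiv.mul_apply, hg, hf]; simp [mul_assoc]

theorem isDg_one : IsDg (1 : (Fin 2 → F) ≃ₗ[F] (Fin 2 → F)) 1 1 := by
  intro v; ext i; fin_cases i <;> simp

theorem IsDg.pow (hf : IsDg f a b) (n : ℕ) : IsDg (f ^ n) (a ^ n) (b ^ n) := by
  induction n with
  | zero => simpa using isDg_one
  | succ n ih => simpa [pow_succ] using ih.mul hf

theorem IsDg.eq_iff (hf : IsDg f a b) (hg : IsDg g c d) : f = g ↔ a = c ∧ b = d := by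
  constructor
  · rintro rfl
    have := (hf ![1, 1]).symm.trans (hg ![1, 1])
    simpa using this
  · rintro ⟨rfl, rfl⟩
    ext1 v; rw [hf, hg]

theorem IsAd.eq_iff (hf : IsAd f a b) (hg : IsAd g c d) : f = g ↔ a = c ∧ b = d := by
  constructor
  · rintro rfl
    have := (hf ![1, 1]).symm.trans (hg ![1, 1])
    simpa [and_comm] using this
  · rintro ⟨rfl, rfl⟩
    ext1 v; rw [hf, hg]

theorem IsDg.not_ad (hf : IsDg f a b) (hg : IsAd f c d) (ha : a ≠ 0) : False := by
  have := (hf ![1, 0]).symm.trans (hg ![1, 0])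
  simp [ha] at this

def dg (a b : F) (ha : a ≠ 0) (hb : b ≠ 0) : (Fin 2 → F) ≃ₗ[F] (Fin 2 → F) where
  toFun v := ![a * v 0, b * v 1]
  invFun v := ![a⁻¹ * v 0, b⁻¹ * v 1]
  map_add' v w := by ext i; fin_cases i <;> simp [mul_add]
  map_smul' t v := by ext i; fin_cases i <;> simp [mul_left_comm]
  left_inv v := by ext i; fin_cases i <;> simp [ha, hb]
  right_inv v := by ext i; fin_cases i <;> simp [ha, hb]

def ad (a b : F) (ha : a ≠ 0) (hb : b ≠ 0) : (Fin 2 → F) ≃ₗ[F] (Fin 2 → F) where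
  toFun v := ![b * v 1, a * v 0]
  invFun v := ![a⁻¹ * v 1, b⁻¹ * v 0]
  map_add' v w := by ext i; fin_cases i <;> simp [mul_add]
  map_smul' t v := by ext i; fin_cases i <;> simp [mul_left_comm]
  left_inv v := by ext i; fin_cases i <;> simp [ha, hb]
  right_inv v := by ext i; fin_cases i <;> simp [ha, hb]

end concrete

/-- Let q = 2^m + 1 be a prime other than 5. Then the automorphism group of the group of linear maps of F_q² of the forms (x, y) ↦ (a x, ± a⁻¹ y) and (x, y) ↦ (± a⁻¹ y, a x) with a ≠ 0 is itself a 2-group. -/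
theorem result (q m : ℕ) [Fact q.Prime] (hq : q = 2 ^ m + 1) (hq5 : q ≠ 5)
    (T : Subgroup ((Fin 2 → ZMod q) ≃ₗ[ZMod q] (Fin 2 → ZMod q)))
    (hT : ∀ f, f ∈ T ↔ ∃ a s : ZMod q, a ≠ 0 ∧ (s = 1 ∨ s = -1) ∧
      ((∀ v, f v = ![a * v 0, s * a⁻¹ * v 1]) ∨ (∀ v, f v = ![s * a⁻¹ * v 1, a * v 0]))) :
    IsPGroup 2 (MulAut T) := by
  have hfin : Finite ((Fin 2 → ZMod q) ≃ₗ[ZMod q] (Fin 2 → ZMod q)) := DFunLike.finite _
  have hfin' : Finite (MulAut T) := DFunLike.finite _
  have hT' : ∀ f, f ∈ T ↔ ∃ a b : ZMod q, (a * b = 1 ∨ a * b = -1) ∧ (IsDg f a b ∨ IsAd f a b) := by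
    intro f
    rw [hT]
    constructor
    · rintro ⟨a, s, ha, hs, h⟩
      refine ⟨a, s * a⁻¹, ?_, h⟩
      rwa [mul_left_comm, mul_inv_cancel₀ ha, mul_one]
    · rintro ⟨a, b, hab, h⟩
      have ha : a ≠ 0 := by rintro rfl; simp at hab
      refine ⟨a, a * b, ha, hab, ?_⟩
      rwa [mul_right_comm, mul_inv_cancel₀ ha, one_mul]
  have hne : ∀ a b : ZMod q, (a * b = 1 ∨ a * b = -1) → a ≠ 0 ∧ b ≠ 0 := by
    intro a b hab
    constructor <;> (rintro rfl; simp at hab)
  have hx : ∀ x : T, ∃ a b : ZMod q, (a * b = 1 ∨ a * b = -1) ∧ (IsDg x.1 a b ∨ IsAd x.1 a b) :=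
    fun x => (hT' _).1 x.2
  have exD : ∀ a b : ZMod q, (a * b = 1 ∨ a * b = -1) → ∃ x : T, IsDg x.1 a b := fun a b hab =>
    ⟨⟨dg a b (hne a b hab).1 (hne a b hab).2, (hT' _).2 ⟨a, b, hab, Or.inl fun _ => rfl⟩⟩,
      fun _ => rfl⟩
  have exA : ∀ a b : ZMod q, (a * b = 1 ∨ a * b = -1) → ∃ x : T, IsAd x.1 a b := fun a b hab =>
    ⟨⟨ad a b (hne a b hab).1 (hne a b hab).2, (hT' _).2 ⟨a, b, hab, Or.inr fun _ => rfl⟩⟩,
      fun _ => rfl⟩
  have hferm : ∀ a : ZMod q, a ≠ 0 → a ^ 2 ^ m = 1 := by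
    intro a ha
    have := ZMod.pow_card_sub_one_eq_one ha
    rwa [show q - 1 = 2 ^ m by rw [hq]; simp] at this
  have hP : IsPGroup 2 T := by
    intro x
    obtain ⟨a, b, hab, h | h⟩ := hx x
    · refine ⟨m, Subtype.ext ?_⟩
      exact ((h.pow _).eq_iff isDg_one).2 ⟨hferm a (hne a b hab).1, hferm b (hne a b hab).2⟩
    · refine ⟨2, Subtype.ext ?_⟩
      have := (h.mul h).pow 2
      rw [← pow_two, ← pow_mul] at this
      refine (this.eq_iff isDg_one).2 ?_
      rw [mul_comm b a]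
      rcases hab with h | h <;> simp [h]
  apply isPGroup_of_odd
  intro α hα
  rcases m with _ | m
  · -- `q = 2`
    apply eq_one_of_chain hP hα ⊥ (by simp) _ (by simp) (by simp)
    have h1 : ∀ a : ZMod q, a ≠ 0 → a = 1 := fun a ha => by simpa using hferm a ha
    have : ∀ x : T, x ∉ (⊥ : Subgroup T) → IsAd x.1 1 1 := by
      intro x hx'
      obtain ⟨a, b, hab, h⟩ := hx x
      obtain rfl := h1 a (hne a b hab).1
      obtain rfl := h1 b (hne _ b hab).2
      rcases h with h | h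
      · exact absurd (Subtype.ext ((h.eq_iff isDg_one).2 ⟨rfl, rfl⟩)) hx'
      · exact h
    intro x y hx' hy'
    exact Subtype.ext ((((this x hx').mul (this y hy')).eq_iff isDg_one).2 (by simp))
  have h2 : (2 : ZMod q) ≠ 0 := by
    intro h
    have : ((2 : ℕ) : ZMod q) = 0 := by exact_mod_cast h
    rw [ZMod.natCast_eq_zero_iff, Nat.prime_dvd_prime_iff_eq Fact.out Nat.prime_two] at this
    rw [pow_succ] at hq
    omega
  have hne1 : ∀ a : ZMod q, a ≠ 0 → a ≠ -a := by
    intro a ha h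
    rw [eq_neg_iff_add_eq_zero, ← two_mul] at h
    exact ha ((mul_eq_zero.1 h).resolve_left h2)
  obtain ⟨z, hz⟩ := exD (-1) (-1) (by simp)
  obtain ⟨e, he⟩ := exD 1 (-1) (by simp)
  obtain ⟨w, hw⟩ := exA 1 1 (by simp)
  have hzc : ∀ y : T, y * z = z * y := by
    intro y
    obtain ⟨a, b, hab, h | h⟩ := hx y
    · exact Subtype.ext (((h.mul hz).eq_iff (hz.mul h)).2 (by simp))
    · exact Subtype.ext (((h.mul_dg hz).eq_iff (hz.mul_ad h)).2 (by simp))
  have hzz : z * z = 1 := Subtype.ext (((hz.mul hz).eq_iff isDg_one).2 (by simp))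
  have hz1 : z ≠ 1 := fun h =>
    hne1 1 one_ne_zero ((hz.eq_iff isDg_one).1 (congrArg Subtype.val h)).1.symm
  have hsq : ∀ a : ZMod q, a * a = 1 → a = 1 ∨ a = -1 := fun a h => mul_self_eq_one_iff.1 h
  have hαz : α z = z := by
    have c1 : ∀ y : T, y * α z = α z * y := by
      intro y
      obtain ⟨y, rfl⟩ := α.surjective y
      rw [← map_mul, ← map_mul, hzc]
    have c2 : α z * α z = 1 := by rw [← map_mul, hzz, map_one]
    have c3 : α z ≠ 1 := by simpa using hz1
    obtain ⟨a, b, hab, h | h⟩ := hx (α z)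
    · have d1 := ((hw.mul_dg h).eq_iff (h.mul_ad hw)).1 (congrArg Subtype.val (c1 w))
      have d2 := ((h.mul h).eq_iff isDg_one).1 (congrArg Subtype.val c2)
      have hab' : a = b := by simpa using d1.1
      subst hab'
      rcases hsq a d2.1 with rfl | rfl
      · exact absurd (Subtype.ext ((h.eq_iff isDg_one).2 ⟨rfl, rfl⟩)) c3
      · exact Subtype.ext ((h.eq_iff hz).2 ⟨rfl, rfl⟩)
    · exfalso
      have d1 := ((he.mul_ad h).eq_iff (h.mul_dg he)).1 (congrArg Subtype.val (c1 e))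
      exact hne1 b (hne a b hab).2 (by simpa using d1.2)
  rcases m with _ | m
  · -- `q = 3`
    obtain ⟨r, hr⟩ := exA 1 (-1) (by simp)
    have h1 : ∀ a : ZMod q, a ≠ 0 → a = 1 ∨ a = -1 := fun a ha =>
      hsq a (by simpa [pow_two] using hferm a ha)
    have n0 : (1 : ZMod q) ≠ -1 := hne1 1 one_ne_zero
    have hrr : r * r = z := Subtype.ext (((hr.mul hr).eq_iff hz).2 (by simp))
    have hmem : ∀ x : T, x ∈ Subgroup.centralizer {r} ↔ x * x = z ∨ x = 1 ∨ x = z := by
      intro x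
      rw [Subgroup.mem_centralizer_singleton_iff]
      simp only [Subtype.ext_iff, Subgroup.coe_mul, Subgroup.coe_one]
      obtain ⟨a, b, hab, h | h⟩ := hx x
      · rw [(h.mul_ad hr).eq_iff (hr.mul_dg h), (h.mul h).eq_iff hz, h.eq_iff isDg_one,
          h.eq_iff hz]
        rcases h1 a (hne a b hab).1 with rfl | rfl <;> rcases h1 b (hne _ b hab).2 with rfl | rfl <;>
          simp [n0, n0.symm]
      · rw [(h.mul hr).eq_iff (hr.mul h), (h.mul h).eq_iff hz]
        have n1 : x.1 ≠ 1 := fun h' => isDg_one.not_ad (h' ▸ h) one_ne_zero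
        have n2 : x.1 ≠ z.1 := fun h' => hz.not_ad (h' ▸ h) (by simp)
        simp only [n1, n2, or_false]
        rcases h1 a (hne a b hab).1 with rfl | rfl <;> rcases h1 b (hne _ b hab).2 with rfl | rfl <;>
          simp [n0, n0.symm]
    have hmem' : ∀ x : T, x ∈ Subgroup.centralizer {r} ↔
        ∃ a, (a = 1 ∨ a = -1) ∧ (IsDg x.1 a a ∨ IsAd x.1 a (-a)) := by
      intro x
      rw [Subgroup.mem_centralizer_singleton_iff]
      simp only [Subtype.ext_iff, Subgroup.coe_mul]
      constructor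
      · intro hc
        obtain ⟨a, b, hab, h | h⟩ := hx x
        · rw [(h.mul_ad hr).eq_iff (hr.mul_dg h)] at hc
          have : b = a := by simpa using hc.1
          subst this
          exact ⟨b, h1 b (hne _ _ hab).1, Or.inl h⟩
        · rw [(h.mul hr).eq_iff (hr.mul h)] at hc
          have : b = -a := by simpa using hc.1
          subst this
          exact ⟨a, h1 a (hne _ _ hab).1, Or.inr h⟩
      · rintro ⟨a, -, h | h⟩
        · rw [(h.mul_ad hr).eq_iff (hr.mul_dg h)]; simp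
        · rw [(h.mul hr).eq_iff (hr.mul h)]; simp
    apply eq_one_of_chain hP hα (Subgroup.centralizer {r})
    · intro x hx' y hy'
      obtain ⟨a, -, h | h⟩ := (hmem' x).1 hx' <;> obtain ⟨b, -, h' | h'⟩ := (hmem' y).1 hy'
      · exact Subtype.ext (((h.mul h').eq_iff (h'.mul h)).2 (by simp [mul_comm]))
      · exact Subtype.ext (((h.mul_ad h').eq_iff (h'.mul_dg h)).2 (by simp [mul_comm]))
      · exact Subtype.ext (((h.mul_dg h').eq_iff (h'.mul_ad h)).2 (by simp [mul_comm]))
      · exact Subtype.ext (((h.mul h').eq_iff (h'.mul h)).2 (by simp [mul_comm]))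
    · intro x y
      simp only [Subgroup.mem_centralizer_singleton_iff, Subtype.ext_iff, Subgroup.coe_mul]
      obtain ⟨a, b, hab, h | h⟩ := hx x <;> obtain ⟨c, d, hcd, h' | h'⟩ := hx y
      · rw [(h.mul_ad hr).eq_iff (hr.mul_dg h), (h'.mul_ad hr).eq_iff (hr.mul_dg h'),
          ((h.mul h').mul_ad hr).eq_iff (hr.mul_dg (h.mul h'))]
        rcases h1 a (hne a b hab).1 with rfl | rfl <;> rcases h1 b (hne _ b hab).2 with rfl | rfl <;>
          rcases h1 c (hne c d hcd).1 with rfl | rfl <;>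
          rcases h1 d (hne _ d hcd).2 with rfl | rfl <;> simp [n0, n0.symm]
      · rw [(h.mul_ad hr).eq_iff (hr.mul_dg h), (h'.mul hr).eq_iff (hr.mul h'),
          ((h.mul_ad h').mul hr).eq_iff (hr.mul (h.mul_ad h'))]
        rcases h1 a (hne a b hab).1 with rfl | rfl <;> rcases h1 b (hne _ b hab).2 with rfl | rfl <;>
          rcases h1 c (hne c d hcd).1 with rfl | rfl <;>
          rcases h1 d (hne _ d hcd).2 with rfl | rfl <;> simp [n0, n0.symm]
      · rw [(h.mul hr).eq_iff (hr.mul h), (h'.mul_ad hr).eq_iff (hr.mul_dg h'),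
          ((h.mul_dg h').mul hr).eq_iff (hr.mul (h.mul_dg h'))]
        rcases h1 a (hne a b hab).1 with rfl | rfl <;> rcases h1 b (hne _ b hab).2 with rfl | rfl <;>
          rcases h1 c (hne c d hcd).1 with rfl | rfl <;>
          rcases h1 d (hne _ d hcd).2 with rfl | rfl <;> simp [n0, n0.symm]
      · rw [(h.mul hr).eq_iff (hr.mul h), (h'.mul hr).eq_iff (hr.mul h'),
          ((h.mul h').mul_ad hr).eq_iff (hr.mul_dg (h.mul h'))]
        rcases h1 a (hne a b hab).1 with rfl | rfl <;> rcases h1 b (hne _ b hab).2 with rfl | rfl <;>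
          rcases h1 c (hne c d hcd).1 with rfl | rfl <;>
          rcases h1 d (hne _ d hcd).2 with rfl | rfl <;> simp [n0, n0.symm]
    · intro x
      have hz' : ∀ y, α y = z ↔ y = z := fun y => by
        rw [← α.injective.eq_iff (a := y), hαz]
      rw [hmem, hmem, ← map_mul, hz', hz', map_eq_one_iff _ α.injective]
    · intro x hx' hxx
      rcases (hmem x).1 hx' with h | rfl | rfl
      · exact absurd (h.symm.trans hxx) hz1
      · simp
      · exact hαz
  rcases m with _ | m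
  · exact absurd hq hq5
  -- `q > 5`
  obtain ⟨g, hg⟩ := IsCyclic.exists_ofOrder_eq_natCard (α := (ZMod q)ˣ)
  have hg4 : (g : ZMod q) ^ 4 ≠ 1 := by
    intro h
    have : g ^ 4 = 1 := Units.ext (by simpa using h)
    rw [← orderOf_dvd_iff_pow_eq_one, hg, Nat.card_eq_fintype_card, ZMod.card_units] at this
    have h4 := Nat.le_of_dvd (by norm_num) this
    have : 2 ^ 3 ≤ 2 ^ (m + 1 + 1 + 1) := Nat.pow_le_pow_right (by norm_num) (by omega)
    omega
  obtain ⟨t, ht⟩ := exD g (g : ZMod q)⁻¹ (Or.inl (mul_inv_cancel₀ g.ne_zero))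
  let D : Subgroup T := Subgroup.centralizer (Set.range fun y : T => y * y)
  have hD : ∀ x : T, x ∈ D ↔ ∃ a b, (a * b = 1 ∨ a * b = -1) ∧ IsDg x.1 a b := by
    intro x
    simp only [D, Subgroup.mem_centralizer_iff, Set.forall_mem_range]
    constructor
    · intro hc
      obtain ⟨a, b, hab, h | h⟩ := hx x
      · exact ⟨a, b, hab, h⟩
      · exfalso
        have d1 := (((ht.mul ht).mul_ad h).eq_iff (h.mul_dg (ht.mul ht))).1
          (congrArg Subtype.val (hc t))
        apply hg4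
        have d2 := d1.1
        have ha := (hne a b hab).1
        have hg0 : (g : ZMod q) ≠ 0 := g.ne_zero
        field_simp at d2
        exact d2.symm
    · rintro ⟨a, b, -, h⟩ y
      obtain ⟨c, d, -, h' | h'⟩ := hx y
      · exact Subtype.ext ((((h'.mul h').mul h).eq_iff (h.mul (h'.mul h'))).2 (by simp [mul_comm]))
      · exact Subtype.ext ((((h'.mul h').mul h).eq_iff (h.mul (h'.mul h'))).2 (by simp [mul_comm]))
  have hinv : ∀ x, α x ∈ D ↔ x ∈ D := by
    intro x
    simp only [D, Subgroup.mem_centralizer_iff, Set.forall_mem_range]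
    rw [α.surjective.forall]
    simp only [← map_mul, α.injective.eq_iff]
  apply eq_one_of_chain hP hα D _ _ hinv
  · have hclass : ∀ x ∈ D, x * x = 1 → x = 1 ∨ x = z ∨ x = e ∨ x = z * e := by
      intro x hx' hxx
      obtain ⟨a, b, -, h⟩ := (hD x).1 hx'
      have d2 := ((h.mul h).eq_iff isDg_one).1 (congrArg Subtype.val hxx)
      simp only [Subtype.ext_iff, Subgroup.coe_mul, Subgroup.coe_one]
      rw [h.eq_iff isDg_one, h.eq_iff hz, h.eq_iff he, h.eq_iff (hz.mul he)]
      rcases hsq a d2.1 with rfl | rfl <;> rcases hsq b d2.2 with rfl | rfl <;> simp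
    have hee : e * e = 1 := Subtype.ext (((he.mul he).eq_iff isDg_one).2 (by simp))
    have heD : e ∈ D := (hD e).2 ⟨1, -1, by simp, he⟩
    have hαe : α e = e := by
      rcases hclass (α e) ((hinv e).2 heD) (by rw [← map_mul, hee, map_one]) with h | h | h | h
      · exfalso
        have : e = 1 := by simpa using h
        exact hne1 1 one_ne_zero ((he.eq_iff isDg_one).1 (congrArg Subtype.val this)).2.symm
      · exfalso
        rw [← hαz] at h
        exact hne1 1 one_ne_zero ((he.eq_iff hz).1 (congrArg Subtype.val (α.injective h))).1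
      · exact h
      · apply fix_of_fix hP hα
        rw [h, ← hzc, inv_mul_cancel_left, hαz]
    intro x hx' hxx
    rcases hclass x hx' hxx with rfl | rfl | rfl | rfl
    · simp
    · exact hαz
    · exact hαe
    · rw [map_mul, hαz, hαe]
  · intro x hx' y hy'
    obtain ⟨a, b, -, h⟩ := (hD x).1 hx'
    obtain ⟨c, d, -, h'⟩ := (hD y).1 hy'
    exact Subtype.ext (((h.mul h').eq_iff (h'.mul h)).2 (by simp [mul_comm]))
  · intro x y hx' hy'
    obtain ⟨a, b, hab, h | h⟩ := hx x
    · exact absurd ((hD x).2 ⟨a, b, hab, h⟩) hx'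
    obtain ⟨c, d, hcd, h' | h'⟩ := hx y
    · exact absurd ((hD y).2 ⟨c, d, hcd, h'⟩) hy'
    refine (hD _).2 ⟨_, _, ?_, h.mul h'⟩
    have : b * c * (a * d) = (a * b) * (c * d) := by ring
    rw [this]
    rcases hab with h | h <;> rcases hcd with h' | h' <;> simp [h, h']

end Cfsg.Agent.S3382
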