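import Cfsg.Statements.S3383
import Cfsg.Agent.Local.FrobBasic

set_option autoImplicit false
open Cfsg

namespace Cfsg.Agent.S3383

open Cfsg.Agent.Local

/-- Let H be a Frobenius complement in a finite group L and K the Frobenius kernel (as a subgroup). Then K is characteristic in L, and every normal subgroup of L either contains K or is contained in K. -/
theorem result {L : Type*} [Group L] [Finite L]
    (H : Subgroup L) (hH : Cfsg.IsFrobeniusComplement H)
    (K : Subgroup L) (hK : (K : Set L) = Cfsg.frobeniusKernel H) :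
    K.Characteristic ∧ ∀ N : Subgroup L, N.Normal → K ≤ N ∨ N ≤ K := by
  have hKn : K.Normal := normal_of_coe_eq_frobeniusKernel hK
  have key : ∀ N : Subgroup L, N.Normal → K ≤ N ∨ N ≤ K := by
    intro N hN
    by_cases h : N ≤ K
    · exact Or.inr h
    left
    obtain ⟨x, hxN, hxK⟩ := SetLike.not_le_iff_exists.1 h
    intro y hy
    have hx' : x ∉ Cfsg.frobeniusKernel H := by rw [← hK]; exact hxK
    obtain ⟨k, -, hk⟩ := exists_commutator_eq_of_fpf (K := K) (x := x)
      (fun k hk => hKn.conj_mem k hk x)
      (fun k hk hc => frob_eq_one_of_commute hH hx' (by rw [← hK]; exact hk) hc) hy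
    rw [← hk]
    have h1 : k * x * k⁻¹ ∈ N := hN.conj_mem x hxN k
    have : k * (x * k⁻¹ * x⁻¹) = (k * x * k⁻¹) * x⁻¹ := by group
    rw [this]
    exact N.mul_mem h1 (N.inv_mem hxN)
  refine ⟨?_, key⟩
  rw [Subgroup.characteristic_iff_map_eq]
  intro φ
  have hn : (K.map φ.toMonoidHom).Normal := hKn.map _ φ.surjective
  have hc : Nat.card (K.map φ.toMonoidHom) = Nat.card K :=
    Subgroup.card_map_of_injective φ.injective
  rcases key _ hn with h | h
  · exact (Subgroup.eq_of_le_of_card_ge h hc.le).symm
  · exact Subgroup.eq_of_le_of_card_ge h hc.ge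

end Cfsg.Agent.S3383
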