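import Cfsg.Statements.S3419
import Cfsg.Agent.LinP.OrderPR
import Cfsg.Agent.LinP.TwoPrimes

set_option autoImplicit false
open Cfsg

namespace Cfsg.Agent.S3419

open Cfsg.Agent.LinP

theorem le_of_pow_dvd {p N k i : ℕ} (h : ¬ p ^ (k + 1) ∣ N) (hi : p ^ i ∣ N) : i ≤ k := by
  by_contra hc
  exact h ((pow_dvd_pow p (by omega)).trans hi)

/-- Let n ≥ 5 and let G be a finite group with the same order and the same set of element orders as the alternating group of degree n. Then G is not solvable. -/
theorem result {G : Type*} [Group G] [Finite G] (n : ℕ) (hn : 5 ≤ n)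
    (hcard : Nat.card G = Nat.card ↥(alternatingGroup (Fin n)))
    (hspec : Set.range (orderOf : G → ℕ) = Set.range (orderOf : ↥(alternatingGroup (Fin n)) → ℕ)) :
    ¬ Group.IsSolvable G := by
  intro hs
  have h2 : 2 * Nat.card G = n.factorial := by rw [hcard, two_mul_card_alt (by omega)]
  have hd : Nat.card G ∣ n.factorial := Dvd.intro_left 2 h2
  have hdvd : ∀ p : ℕ, p.Prime → 2 < p → p ≤ n → p ∣ Nat.card G := by
    intro p hp hp2 hpn
    have := (hp.dvd_factorial).2 hpn
    rw [← h2, hp.dvd_mul] at this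
    exact this.resolve_left (Nat.not_dvd_of_pos_of_lt two_pos hp2)
  have key : ∀ p r : ℕ, p.Prime → r.Prime → 2 < p → p < r → r ≤ n → n < p + r →
      (∀ i, 1 ≤ i → p ^ i ∣ n.factorial → ¬ p ^ i ≡ 1 [MOD r]) →
      (∀ i, 1 ≤ i → r ^ i ∣ n.factorial → ¬ r ^ i ≡ 1 [MOD p]) → False := by
    intro p r hp hr h1 h2 h3 h4 h5 h6
    obtain ⟨g, hg⟩ := exists_orderOf_mul_of_solvable (G := G) hp hr h2.ne (hdvd p hp h1 (by omega))
      (hdvd r hr (by omega) h3) (fun i hi h => h5 i hi (h.trans hd))
      (fun i hi h => h6 i hi (h.trans hd))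
    exact not_mem_spec_alt hp hr h2.ne h4 (hspec ▸ ⟨g, hg⟩)
  by_cases h6 : n ≤ 6
  · have hf : n.factorial ∣ Nat.factorial 6 := Nat.factorial_dvd_factorial h6
    refine key 3 5 (by norm_num) (by norm_num) (by norm_num) (by norm_num) hn (by omega) ?_ ?_
    · intro i hi h
      have := le_of_pow_dvd (k := 2) (by decide) (h.trans hf)
      interval_cases i <;> decide
    · intro i hi h
      have := le_of_pow_dvd (k := 1) (by decide) (h.trans hf)
      interval_cases i; decide
  by_cases h10 : n ≤ 10
  · have hf : n.factorial ∣ Nat.factorial 10 := Nat.factorial_dvd_factorial h10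
    refine key 5 7 (by norm_num) (by norm_num) (by norm_num) (by norm_num) (by omega) (by omega) ?_ ?_
    · intro i hi h
      have := le_of_pow_dvd (k := 2) (by decide) (h.trans hf)
      interval_cases i <;> decide
    · intro i hi h
      have := le_of_pow_dvd (k := 1) (by decide) (h.trans hf)
      interval_cases i; decide
  obtain ⟨p, r, hp, hr, h1, h2, h3⟩ := two_primes_half n (by omega)
  refine key p r hp hr (by omega) h2 h3 (by omega) ?_ ?_
  · intro i hi h
    have := le_of_pow_dvd (k := 1) (not_sq_dvd_factorial hp h1) h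
    obtain rfl : i = 1 := by omega
    rw [pow_one]
    intro hc
    have := Nat.le_of_dvd (by omega) ((Nat.modEq_iff_dvd' hp.one_le).1 hc.symm)
    omega
  · intro i hi h
    have := le_of_pow_dvd (k := 1) (not_sq_dvd_factorial hr (by omega)) h
    obtain rfl : i = 1 := by omega
    rw [pow_one]
    intro hc
    obtain ⟨t, ht⟩ := (Nat.modEq_iff_dvd' hr.one_le).1 hc.symm
    obtain ⟨a, ha⟩ := hp.odd_of_ne_two (by omega)
    obtain ⟨b, hb⟩ := hr.odd_of_ne_two (by omega)
    have : t = 0 ∨ t = 1 ∨ 2 ≤ t := by omega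
    rcases this with rfl | rfl | h
    · omega
    · omega
    · have := Nat.mul_le_mul_left p h
      omega

end Cfsg.Agent.S3419
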