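import Cfsg.Statements.S3420
import Cfsg.Agent.LinP.OrderPR
import Cfsg.Agent.LinP.TwoPrimes

set_option autoImplicit false
open Cfsg

namespace Cfsg.Agent.S3420

open Cfsg.Agent.LinP Cfsg.Agent.Local Subgroup

/-- Let n ≥ 11 and let G be a finite group with the same order and the same set of element orders as the alternating group of degree n. Then G has normal subgroups N < H such that H/N is a non-abelian simple group whose order is divisible by every prime p with n/2 < p ≤ n. -/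
theorem result {G : Type*} [Group G] [Finite G] (n : ℕ) (hn : 11 ≤ n)
    (hcard : Nat.card G = Nat.card ↥(alternatingGroup (Fin n)))
    (hspec : Set.range (orderOf : G → ℕ) = Set.range (orderOf : ↥(alternatingGroup (Fin n)) → ℕ)) :
    ∃ (N H : Subgroup G) (_ : N.Normal), H.Normal ∧ N < H ∧
      IsSimpleGroup (↥H ⧸ N.subgroupOf H) ∧ ¬ IsMulCommutative (↥H ⧸ N.subgroupOf H) ∧
      ∀ p : ℕ, p.Prime → n < 2 * p → p ≤ n → p ∣ Nat.card (↥H ⧸ N.subgroupOf H) := by
  have h2 : 2 * Nat.card G = n.factorial := by rw [hcard, two_mul_card_alt (by omega)]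
  have hd : Nat.card G ∣ n.factorial := Dvd.intro_left 2 h2
  have hdvd : ∀ p : ℕ, p.Prime → n < 2 * p → p ≤ n → p ∣ Nat.card G := by
    intro p hp hp2 hpn
    have := (hp.dvd_factorial).2 hpn
    rw [← h2, hp.dvd_mul] at this
    exact this.resolve_left (Nat.not_dvd_of_pos_of_lt two_pos (by omega))
  obtain ⟨p₀, r₀, hp₀, hr₀, h01, h02, h03⟩ := two_primes_half n hn
  obtain ⟨H, ⟨hHn, p, hp, hp1, hp2, hpH⟩, hmin⟩ := Set.Finite.exists_minimal
    (s := {K : Subgroup G | K.Normal ∧ ∃ p : ℕ, p.Prime ∧ n < 2 * p ∧ p ≤ n ∧ p ∣ Nat.card K})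
    (Set.toFinite _) ⟨⊤, inferInstance, p₀, hp₀, h01, by omega, by
      rw [card_top]; exact hdvd p₀ hp₀ h01 (by omega)⟩
  have hall : ∀ r : ℕ, r.Prime → n < 2 * r → r ≤ n → r ∣ Nat.card H := by
    intro r hr hr1 hr2
    by_contra hrH
    have hpr : p ≠ r := by rintro rfl; exact hrH hpH
    obtain ⟨g, hg⟩ := exists_orderOf_mul_of_dvd_normal hp hr hpr H hpH hrH (hdvd r hr hr1 hr2) (by
      intro i hi h
      have : i ≤ 1 := by
        by_contra hc
        exact not_sq_dvd_factorial hp hp1 (((pow_dvd_pow p (by omega)).trans h).trans hd)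
      obtain rfl : i = 1 := by omega
      rw [pow_one]
      intro hc
      obtain ⟨t, ht⟩ := (Nat.modEq_iff_dvd' hp.one_le).1 hc.symm
      obtain ⟨a, ha⟩ := hp.odd_of_ne_two (by omega)
      obtain ⟨b, hb⟩ := hr.odd_of_ne_two (by omega)
      have : t = 0 ∨ t = 1 ∨ 2 ≤ t := by omega
      rcases this with rfl | rfl | h
      · omega
      · omega
      · have := Nat.mul_le_mul_left r h
        omega)
    exact not_mem_spec_alt (n := n) hp hr hpr (by omega) (hspec ▸ ⟨g, hg⟩)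
  have hH0 : ⊥ < H := by
    rw [bot_lt_iff_ne_bot]
    rintro rfl
    rw [card_bot] at hpH
    exact hp.not_dvd_one hpH
  obtain ⟨N, ⟨hNn, hNH⟩, hmax⟩ := Set.Finite.exists_maximal
    (s := {K : Subgroup G | K.Normal ∧ K < H}) (Set.toFinite _) ⟨⊥, inferInstance, hH0⟩
  have hN : ∀ r : ℕ, r.Prime → n < 2 * r → r ≤ n → ¬ r ∣ Nat.card N := fun r hr hr1 hr2 h =>
    hNH.not_ge (hmin ⟨hNn, r, hr, hr1, hr2, h⟩ hNH.le)
  have hq : ∀ r : ℕ, r.Prime → n < 2 * r → r ≤ n → r ∣ Nat.card (↥H ⧸ N.subgroupOf H) := by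
    intro r hr hr1 hr2
    have := hall r hr hr1 hr2
    rw [← card_mul_relIndex hNH.le, hr.dvd_mul] at this
    exact this.resolve_left (hN r hr hr1 hr2)
  have hsimple : IsSimpleGroup (↥H ⧸ N.subgroupOf H) := by
    refine isSimpleGroup_chief_factor hp hNH ?_ hpH ?_ (hN p hp hp1 hp2)
    · intro M hM h1 h2
      rcases h2.eq_or_lt with h | h
      · exact Or.inr h
      · exact Or.inl (le_antisymm (hmax ⟨hM, h⟩ h1) h1)
    · intro h
      exact not_sq_dvd_factorial hp hp1 ((h.trans H.card_subgroup_dvd_card).trans hd)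
  refine ⟨N, H, hNn, hHn, hNH, hsimple, fun hc => ?_, hq⟩
  have hpr := Group.is_simple_iff_prime_card.1 hsimple
  have e1 := (Nat.prime_dvd_prime_iff_eq hp₀ hpr).1 (hq p₀ hp₀ h01 (by omega))
  have e2 := (Nat.prime_dvd_prime_iff_eq hr₀ hpr).1 (hq r₀ hr₀ (by omega) h03)
  omega

end Cfsg.Agent.S3420
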