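import Cfsg.Statements.S3421
import Cfsg.Agent.PSL2Rec.FromTI

set_option autoImplicit false
open Cfsg

namespace Cfsg.Agent.S3421

/-- Let F be a finite field with more than 3 elements. A finite group G is isomorphic to PSL(2, F) if and only if G has the same set of element orders and the same order as PSL(2, F). -/
theorem result {G : Type*} [Group G] [Finite G] {F : Type*} [Field F] [Fintype F] (hF : 3 < Fintype.card F) :
    Nonempty (G ≃* Matrix.ProjectiveSpecialLinearGroup (Fin 2) F) ↔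
      (Set.range (orderOf : G → ℕ) = Set.range (orderOf : Matrix.ProjectiveSpecialLinearGroup (Fin 2) F → ℕ) ∧
        Nat.card G = Nat.card (Matrix.ProjectiveSpecialLinearGroup (Fin 2) F)) := by
  constructor
  · rintro ⟨e⟩
    refine ⟨?_, Nat.card_congr e.toEquiv⟩
    ext n
    constructor
    · rintro ⟨x, rfl⟩
      exact ⟨e x, e.orderOf_eq x⟩
    · rintro ⟨x, rfl⟩
      exact ⟨e.symm x, e.symm.orderOf_eq x⟩
  rintro ⟨hs, hc⟩
  obtain ⟨p, hp⟩ := CharP.exists F
  obtain ⟨n, hpp, hn⟩ := FiniteField.card F p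
  have := Fact.mk hpp
  rw [Spec.spec_psl2 p] at hs
  have hs' : ∀ x : G, orderOf x ∣ p ∨ orderOf x ∣ (Fintype.card F - 1) / Nat.gcd 2 (Fintype.card F - 1) ∨
      orderOf x ∣ (Fintype.card F + 1) / Nat.gcd 2 (Fintype.card F - 1) := fun x => by
    have : orderOf x ∈ Set.range (orderOf : G → ℕ) := ⟨x, rfl⟩
    rwa [hs] at this
  have d1 : (Fintype.card F - 1) / Nat.gcd 2 (Fintype.card F - 1) ∣ Fintype.card F - 1 :=
    Nat.div_dvd_of_dvd (Nat.gcd_dvd_right _ _)
  have d2 : (Fintype.card F + 1) / Nat.gcd 2 (Fintype.card F - 1) ∣ Fintype.card F + 1 :=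
    Nat.div_dvd_of_dvd (Spec.gcd_two_card_add_one (F := F) ▸ Nat.gcd_dvd_right _ _)
  have hpq : p ∣ Fintype.card F := hn ▸ dvd_pow_self p n.ne_zero
  have hp1 : ¬ p ∣ Fintype.card F - 1 := fun h =>
    hpp.not_dvd_one ((Nat.dvd_sub_iff_right (by omega) hpq).1 h)
  have hp2 : ¬ p ∣ Fintype.card F + 1 := fun h => hpp.not_dvd_one ((Nat.dvd_add_right hpq).1 h)
  have hN : PSL2Rec.NoMul p G := by
    intro r hr x hx
    rcases hs' x with h | h | h <;> rw [hx] at h
    · have := Nat.le_of_dvd hpp.pos h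
      have := hr.two_le
      have := hpp.pos
      nlinarith
    · exact hp1 ((dvd_mul_right _ _).trans (h.trans d1))
    · exact hp2 ((dvd_mul_right _ _).trans (h.trans d2))
  refine PSL2Rec.recog_psl2 hF p hc hN.sylowTI (fun r hr _ => hN r hr) ?_
  intro ho r hr hrq hr2 x hx
  rcases hs' x with h | h | h <;> rw [hx] at h
  · rw [(Nat.prime_dvd_prime_iff_eq hr hpp).1 ((dvd_mul_right _ _).trans h)] at hrq
    exact hp1 hrq
  · exact absurd (even_iff_two_dvd.2 ((dvd_mul_left _ _).trans h)) (Nat.not_even_iff_odd.2 ho)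
  · have h1 := (dvd_mul_right _ _).trans (h.trans d2)
    rw [show Fintype.card F + 1 = Fintype.card F - 1 + 2 by omega, Nat.dvd_add_right hrq] at h1
    exact hr2 ((Nat.prime_dvd_prime_iff_eq hr Nat.prime_two).1 h1)

end Cfsg.Agent.S3421
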