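import Cfsg.Statements.S3427
import Cfsg.Agent.G22.D
import Cfsg.Agent.Comp.G22.Spec

set_option autoImplicit false
open Cfsg

namespace Cfsg.Agent.S3427


/-- Let F be the field with 2 elements and let M be the Chevalley group of type G₂ over F (a non-simple group of order 12096 whose derived subgroup, of index 2, is isomorphic to PSU(3, 3)). A finite group G is isomorphic to M if and only if G has the same set of element orders and the same order as M. -/
theorem result {G : Type*} [Group G] [Finite G] {F : Type*} [Field F] [Fintype F] (hF : Fintype.card F = 2) :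
    Nonempty (G ≃* ↥(Cfsg.Lie.chevG2.group F)) ↔
      (Set.range (orderOf : G → ℕ) = Set.range (orderOf : ↥(Cfsg.Lie.chevG2.group F) → ℕ) ∧ Nat.card G = Nat.card ↥(Cfsg.Lie.chevG2.group F)) := by
  refine ⟨fun ⟨e⟩ => ⟨Set.ext fun n => ⟨fun ⟨g, hg⟩ => ⟨e g, (e.orderOf_eq g).trans hg⟩,
    fun ⟨g, hg⟩ => ⟨e.symm g, (e.symm.orderOf_eq g).trans hg⟩⟩, Nat.card_congr e.toEquiv⟩, fun ⟨h1, h2⟩ => ?_⟩
  have h3 := Comp.G22.card_G22 hF
  have h4 := Comp.G22.spec_G22 hF
  have key : ∀ n ∈ [1, 2, 3, 4, 6, 7, 8, 12], n ∣ 8 ∨ n ∣ 12 ∨ n ∣ 7 := by decide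
  have : Finite (Cfsg.Lie.chevG2.group F) := Nat.finite_of_card_ne_zero (by omega)
  obtain ⟨e1⟩ := G22.Hyp.equiv (G := G) ⟨h2.trans h3, fun g => by
    simpa only [orderOf_dvd_iff_pow_eq_one] using key _ ((h1.trans h4).subset ⟨g, rfl⟩)⟩
  obtain ⟨e2⟩ := G22.Hyp.equiv (G := Cfsg.Lie.chevG2.group F) ⟨h3, fun g => by
    simpa only [orderOf_dvd_iff_pow_eq_one] using key _ (h4.subset ⟨g, rfl⟩)⟩
  exact ⟨e1.trans e2.symm⟩

end Cfsg.Agent.S3427
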