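import Cfsg.Statements.S3430
import Cfsg.Agent.Local.Zsigmondy

set_option autoImplicit false
open Cfsg

namespace Cfsg.Agent.S3430

open Cfsg.Agent.Local

/-- Let q, n ≥ 2 be integers. Unless (n = 2 and q + 1 = 2^s·3^t for some s ≥ 0 and t ≤ 1), or (q = 2 and n ∈ {4, 6, 10, 12, 18}), or (q = 3 and n ∈ {4, 6}), or (q, n) = (5, 6), there is a prime p dividing q^n − 1 but no q^i − 1 with 1 ≤ i < n (a primitive prime divisor), such that p > n + 1 or p² divides q^n − 1. -/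
theorem result (q n : ℕ) (hq : 2 ≤ q) (hn : 2 ≤ n)
    (h1 : ¬ (n = 2 ∧ ∃ s t : ℕ, t ≤ 1 ∧ q + 1 = 2 ^ s * 3 ^ t))
    (h2 : ¬ (q = 2 ∧ (n = 4 ∨ n = 6 ∨ n = 10 ∨ n = 12 ∨ n = 18)))
    (h3 : ¬ (q = 3 ∧ (n = 4 ∨ n = 6))) (h4 : ¬ (q = 5 ∧ n = 6)) :
    ∃ p : ℕ, p.Prime ∧ p ∣ q ^ n - 1 ∧ (∀ i : ℕ, 1 ≤ i → i < n → ¬ p ∣ q ^ i - 1) ∧ (n + 1 < p ∨ p ^ 2 ∣ q ^ n - 1) := by
  rcases hn.eq_or_lt with rfl | hn3
  · by_contra hcon
    push Not at hcon
    apply h1
    obtain ⟨s, m, hm, hsm⟩ := Nat.exists_eq_two_pow_mul_odd (n := q + 1) (by omega)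
    have h5 : m ∣ 3 := by
      rw [Nat.dvd_iff_prime_pow_dvd_dvd]
      intro r k hr hk
      rcases k with _ | k
      · simp
      have h6 : r ∣ m := (dvd_pow_self r k.succ_ne_zero).trans hk
      have h7 : r ≠ 2 := by
        rintro rfl
        exact (Nat.not_even_iff_odd.2 hm) (even_iff_two_dvd.2 h6)
      have h8 : m ∣ q + 1 := Dvd.intro_left _ hsm.symm
      have h9 : q + 1 ∣ q ^ 2 - 1 := by
        have : q ^ 2 - 1 = (q + 1) * (q - 1) := by simpa using Nat.sq_sub_sq q 1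
        exact Dvd.intro _ this.symm
      obtain ⟨h10, h11⟩ := hcon r hr (h6.trans (h8.trans h9)) (by
        intro i hi1 hi2 hd
        obtain rfl : i = 1 := by omega
        have h12 := Nat.dvd_sub (h6.trans h8) hd
        have h13 : q + 1 - (q ^ 1 - 1) = 2 := by rw [pow_one]; omega
        rw [h13] at h12
        exact h7 ((Nat.prime_dvd_prime_iff_eq hr Nat.prime_two).1 h12))
      have h12 := hr.two_le
      obtain rfl : r = 3 := by omega
      obtain rfl : k = 0 := by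
        by_contra h13
        exact h11 ((pow_dvd_pow 3 (by omega)).trans (hk.trans (h8.trans h9)))
      simp
    rcases (Nat.dvd_prime Nat.prime_three).1 h5 with rfl | rfl
    · exact ⟨rfl, s, 0, by omega, by simpa using hsm⟩
    · exact ⟨rfl, s, 1, by omega, by simpa using hsm⟩
  · apply exists_large_primitive_prime hq hn3
    simp only [zsigExc, Bool.or_eq_false_iff, Bool.and_eq_false_imp, beq_iff_eq,
      beq_eq_false_iff_ne]
    omega

end Cfsg.Agent.S3430
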