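import Cfsg.Statements.S3433
import Cfsg.Agent.Sp5.Top
-- import your own Cfsg.Agent.* helpers here

set_option autoImplicit false
open Cfsg

namespace Cfsg.Agent.S3433

/-- A finite group whose set of element orders is exactly {1, 2, 3, 4, 5} is isomorphic to the alternating group of degree 6, or has a normal elementary abelian 2-subgroup with quotient isomorphic to the alternating group of degree 5. -/
theorem result {G : Type*} [Group G] [Finite G] (h : Set.range (orderOf : G → ℕ) = {k : ℕ | 1 ≤ k ∧ k ≤ 5}) :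
    Nonempty (G ≃* ↥(alternatingGroup (Fin 6))) ∨
      ∃ (N : Subgroup G) (_ : N.Normal), Cfsg.IsElementaryAbelian 2 N ∧ Nonempty (G ⧸ N ≃* ↥(alternatingGroup (Fin 5))) := by
  have h1 : Sp5.Le5 G := fun x => (h ▸ Set.mem_range_self x : orderOf x ∈ {k : ℕ | 1 ≤ k ∧ k ≤ 5}).2
  have h2 : ∀ k, 1 ≤ k → k ≤ 5 → k ∣ Nat.card G := fun k h1 h2 => by
    obtain ⟨x, hx⟩ : k ∈ Set.range (orderOf : G → ℕ) := h ▸ ⟨h1, h2⟩
    exact hx ▸ orderOf_dvd_natCard x
  refine (h1.structure (h2 2 (by norm_num) (by norm_num)) (h2 3 (by norm_num) (by norm_num))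
    (h2 5 (by norm_num) (by norm_num))).imp_right fun ⟨h3, h4⟩ => ⟨_, inferInstance, ⟨⟨⟨fun a b =>
      Subtype.ext (Sp5.comm_of_mul_self h3 a.2 b.2)⟩⟩, fun a ha => ?_⟩, h4⟩
  rw [pow_two, h3 a ha]

end Cfsg.Agent.S3433
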