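import Cfsg.Statements.S3699
import Cfsg.Agent.Zass.SzId
import Cfsg.Agent.Suzuki.Hall

set_option autoImplicit false
open Cfsg

namespace Cfsg.Agent.S3699

open Cfsg.Agent.CIT Cfsg.Agent.Suzuki Cfsg.Agent.Zass

/-- Let `q = 2^(2m+1) ≥ 8` and `S = Sz(q)` the Suzuki group. If a finite group `G` has the same prime graph as `S` (same prime divisors of the order; for distinct primes `r, s` an element of order `rs` in one iff in the other), then `G/O₂(G)` is isomorphic to `S`. The known proof uses the classification of finite simple groups. -/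
theorem result {F : Type*} [Field F] [Fintype F] (m : ℕ) (hm : 1 ≤ m)
    (hF : Fintype.card F = 2 ^ (2 * m + 1)) {G : Type*} [Group G] [Finite G]
    (h : ((∀ r : ℕ, r.Prime → (r ∣ Nat.card ↥(Cfsg.Lie.Sz F (2 ^ (m + 1))) ↔ r ∣ Nat.card G)) ∧
      (∀ r s : ℕ, r.Prime → s.Prime → r ≠ s → ((∃ x : ↥(Cfsg.Lie.Sz F (2 ^ (m + 1))), orderOf x = r * s) ↔ (∃ y : G, orderOf y = r * s))))) :
    Nonempty (G ⧸ Cfsg.pCore 2 G ≃* ↥(Cfsg.Lie.Sz F (2 ^ (m + 1)))) := by
  have : Fact (Nat.Prime 2) := ⟨Nat.prime_two⟩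
  have := Fintype.ofFinite G
  have hS : IsSz F m := ⟨hm, hF⟩
  obtain ⟨h1, h2⟩ := h
  have cF := card_Sz F
  rw [hF] at cF
  simp only [← Nat.card_congr (szEquiv F).toEquiv, cF] at h1
  have adj : ∀ r s : ℕ, r.Prime → s.Prime → r ≠ s → (∃ y : G, orderOf y = r * s) →
      ∃ x : Sz F m, orderOf x = r * s := fun r s hr hs hrs h3 => by
    obtain ⟨x, hx⟩ := (h2 r s hr hs hrs).mpr h3
    exact ⟨(szEquiv F).symm x, by rw [MulEquiv.orderOf_eq, hx]⟩
  have key : ∀ (r s : ℕ) (x : Sz F m), s ≠ 0 → orderOf x = r * s → orderOf (x ^ s) = r :=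
    fun r s x hs hx => by
      rw [orderOf_pow' _ hs, hx, Nat.gcd_mul_left_left, Nat.mul_div_cancel _ (Nat.pos_of_ne_zero hs)]
  have no2 : ∀ s : ℕ, s.Prime → 2 ≠ s → ¬ ∃ y : G, orderOf y = 2 * s := fun s hs h3 h4 => by
    obtain ⟨x, hx⟩ := adj 2 s Nat.prime_two hs h3 h4
    have h5 := key 2 s x hs.ne_zero hx
    obtain ⟨n, h6⟩ := isPGroup_centralizer (x := x ^ s) (fun h => by simp [h] at h5)
      (by rw [← sq, ← h5, pow_orderOf_eq_one])
      ⟨x, Subgroup.mem_centralizer_singleton_iff.mpr (Commute.self_pow x s)⟩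
    have h7 := orderOf_dvd_of_pow_eq_one (congrArg Subtype.val h6 : x ^ 2 ^ n = 1)
    exact h3 ((Nat.prime_dvd_prime_iff_eq hs Nat.prime_two).mp
      (hs.dvd_of_dvd_pow ((Dvd.intro_left _ hx.symm).trans h7))).symm
  have hC : IsCIT G := by
    intro x hx
    by_contra h3
    obtain ⟨n, h4, h5⟩ := exists_prime_of_not_two h3
    exact no2 _ h4 h5.symm (Local.exists_orderOf_eq_of_dvd_orderOf
      (((Nat.coprime_primes Nat.prime_two h4).mpr h5.symm).mul_dvd_of_dvd_of_dvd hx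
        (orderOf_pow_dvd n)))
  have h3 : ¬ 3 ∣ Nat.card G := fun h => (suz_dvd m).2 ((h1 3 Nat.prime_three).mpr h)
  have odv : ∀ (p k t : ℕ), p.Prime → p ≠ 2 → (p ∣ 2 ^ k * t ↔ p ∣ t) := fun p k t hp hp2 =>
    ⟨fun h3 => (hp.dvd_mul.mp h3).resolve_left fun h4 => hp2
      ((Nat.prime_dvd_prime_iff_eq hp Nat.prime_two).mp (hp.dvd_of_dvd_pow h4)),
      fun h3 => h3.mul_left _⟩
  have cX := (pCore 2 G).index_dvd_card
  have cY := (oTwo G).card_subgroup_dvd_card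
  have he : 2 ∣ Nat.card G := (h1 2 Nat.prime_two).mp
    ((((dvd_pow_self 2 (by omega)).trans (dvd_pow_self _ two_ne_zero)).mul_right _).mul_right _)
  have t3 : ∀ n, 3 ∣ 2 ^ (2 * n) - 1 := fun n => by
    rw [pow_mul]; exact Nat.sub_one_dvd_pow_sub_one 4 n
  rcases hC.cases he with h4 | ⟨K, _, _, n, hK, ⟨e⟩⟩ | ⟨k, -, h4⟩ | ⟨-, ⟨S, x, y, n, d⟩ |
    ⟨V, W, R, q, hq, c, hR⟩⟩
  · obtain ⟨a1, a2, a3, a4⟩ := torus_arith F
    obtain ⟨g, hg, h5, -⟩ := exists_torus F _ (Or.inl rfl)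
    obtain ⟨r, hr, h6⟩ := Nat.exists_prime_and_dvd
      (show 2 ^ (2 * m + 1) + 2 ^ (m + 1) + 1 ≠ 1 from Nat.succ_ne_succ_iff.mpr (by positivity))
    obtain ⟨s, hs, h7⟩ := Nat.exists_prime_and_dvd a4.ne'
    have o := card_odd_factors F
    rw [hF] at o
    have r1 : r ∣ (2 ^ (2 * m + 1)) ^ 2 + 1 := a2 ▸ h6.mul_right _
    have s1 : s ∣ (2 ^ (2 * m + 1)) ^ 2 + 1 := a2 ▸ h7.mul_left _
    have r2 : 2 ≠ r := by rintro rfl; exact o.1.not_two_dvd_nat r1
    have s2 : 2 ≠ s := by rintro rfl; exact o.1.not_two_dvd_nat s1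
    have cop : ∀ t : ℕ, t.Prime → t ∣ 2 ^ (2 * m + 1) + 2 ^ (m + 1) + 1 →
        ¬ t ∣ 2 ^ (2 * m + 1) - 2 ^ (m + 1) + 1 := fun t ht h8 h9 =>
      ht.one_lt.ne' (Nat.eq_one_of_dvd_coprimes a3 h8 h9)
    have rs : r ≠ s := by rintro rfl; exact cop r hr h6 h7
    refine (Local.not_dvd_card_of_three_coclique ⊤ inferInstance Nat.prime_two hr hs r2 s2 rs
      (no2 r hr r2) (no2 s hs s2) (fun h8 => ?_) (by rwa [Subgroup.card_top]) ?_ ?_).elim
    · obtain ⟨x, hx⟩ := adj r s hr hs rs h8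
      have h9 := key r s x hs.ne_zero hx
      have : Fact r.Prime := ⟨hr⟩
      obtain ⟨z, hz⟩ := exists_conj_mem_of_not_dvd_index (K := Subgroup.zpowers g)
        (isPGroup_zpowers_of_prime h9) (fun h10 => by
          have h11 := (Subgroup.zpowers g).card_mul_index
          rw [Nat.card_zpowers, hg, cF, ← a2, mul_comm (_ ^ 2), mul_assoc, mul_assoc] at h11
          rw [Nat.eq_of_mul_eq_mul_left (by omega) h11, ← pow_mul] at h10
          rcases hr.dvd_mul.mp h10 with h12 | h12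
          · exact cop r hr h6 h12
          · exact not_dvd_both F hr (hF ▸ r1) (hF ▸ (odv _ _ _ hr r2.symm).mp h12))
      have h10 := h5 _ (hz _ (Subgroup.mem_zpowers _)) fun h => by
        rw [show x ^ s = 1 by simpa [mul_assoc, inv_mul_eq_iff_eq_mul] using h, orderOf_one] at h9
        exact hr.one_lt.ne h9
      have h11 : z⁻¹ * x * z ∈ Subgroup.zpowers g := by
        rw [← h10, Subgroup.mem_centralizer_singleton_iff]; group
      have h12 := orderOf_dvd_of_mem_zpowers h11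
      rw [show orderOf (z⁻¹ * x * z) = r * s by simpa [hx] using Char.orderOf_conj' z⁻¹ x, hg] at h12
      exact cop s hs ((Dvd.intro_left _ rfl).trans h12) h7
    · rw [Subgroup.card_top, ← h1 r hr]
      exact (r1.mul_left _).mul_right _
    · rw [← h1 s hs]
      exact (s1.mul_left _).mul_right _
  · refine (h3 (Dvd.dvd.trans ?_ cX)).elim
    rw [Subgroup.index, Nat.card_congr e.toEquiv, (card_psl2_even hK).2]
    exact (t3 n).mul_left _
  · obtain ⟨a, ha⟩ := card_eq_two_pow_mul_quot (G := G)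
    have z : ∀ i j : ℕ, (∀ p : ℕ, p.Prime → p ≠ 2 → p ∣ (2 ^ (2 * i + 1)) ^ 2 + 1 →
        p ∣ ((2 ^ (2 * j + 1)) ^ 2 + 1) * (2 ^ (2 * j + 1) - 1)) → i ≤ j := fun i j h5 => by
      obtain ⟨p, hp, hp2, hpm⟩ := zsig2 (n := 2 * ((2 * i + 1) * 2)) (by omega) (by omega)
      have h6 := (hp.dvd_mul.mp (two_pow_two_mul _ ▸ (hpm _).mpr dvd_rfl)).resolve_left fun h6 => by
        have := Nat.le_of_dvd (by omega) ((hpm _).mp h6); omega
      have h7 := Nat.le_of_dvd (by omega) ((hpm (2 * ((2 * j + 1) * 2))).mp (by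
        rw [two_pow_two_mul, mul_comm, mul_comm (2 * j + 1), two_pow_two_mul, mul_comm 2 (2 * j + 1),
          pow_mul, ← mul_assoc]
        exact (h5 p hp hp2 (pow_mul 2 _ 2 ▸ h6)).mul_right _))
      omega
    have h5 : ∀ p : ℕ, p.Prime → p ≠ 2 →
        (p ∣ ((2 ^ (2 * m + 1)) ^ 2 + 1) * (2 ^ (2 * m + 1) - 1) ↔
          p ∣ ((2 ^ (2 * k + 1)) ^ 2 + 1) * (2 ^ (2 * k + 1) - 1)) := fun p hp hp2 => by
      rw [← odv p ((2 * m + 1) * 2) _ hp hp2, ← mul_assoc, pow_mul 2 _ 2, h1 p hp, ha, odv _ _ _ hp hp2,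
        h4.card, mul_assoc, ← pow_mul 2 _ 2, odv _ _ _ hp hp2, pow_mul 2 _ 2]
    obtain rfl : k = m := le_antisymm (z k m fun p hp hp2 h6 => (h5 p hp hp2).mpr (h6.mul_right _))
      (z m k fun p hp hp2 h6 => (h5 p hp hp2).mp (h6.mul_right _))
    exact SuzZ.equiv h4 F
  · have := Fintype.ofFinite (oTwo G)
    obtain ⟨q, r, c1, c2, -⟩ := d.psl2.{_, 0} (hC.subgroup _) oTwo_index_ne
    refine (h3 (Dvd.dvd.trans ?_ cY)).elim
    rw [c2]
    have h4 : q % 3 = 0 ∨ q % 3 = 1 ∨ q % 3 = 2 := by omega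
    have h5 : ¬ 3 ∣ 2 ^ (n + 3) := fun h => by
      have := Nat.prime_three.dvd_of_dvd_pow h; omega
    generalize 2 ^ (n + 3) = w at c1 h5
    by_cases h6 : 3 ∣ q
    · exact h6.mul_left _
    · exact ((show 3 ∣ r by omega).mul_left _).mul_right _
  · obtain ⟨n, rfl⟩ := c.exists_pow
    refine (h3 (Dvd.dvd.trans ?_ cY)).elim
    rw [c.card_G (hC.subgroup _) hR hq, ← pow_mul' 2 2]
    exact ((t3 n).mul_left _).mul_right _

end Cfsg.Agent.S3699
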