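import Cfsg.Statements.S3700
import Cfsg.Agent.CIT.Main
import Cfsg.Agent.CIT.Arith
import Cfsg.Agent.Spec.PSL2

set_option autoImplicit false
open Cfsg

namespace Cfsg.Agent.S3700

open Cfsg.Agent.CIT

/-- Let `F` be a finite field with `2^m` elements, `m ≥ 4`. If a finite group `G` has the same prime graph as `PSL(2, F)` (same prime divisors of the order; for distinct primes `r, s` an element of order `rs` in one iff in the other), then `G/O₂(G)` is isomorphic to `PSL(2, F)`. The known proof uses the classification of finite simple groups. -/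
theorem result {F : Type*} [Field F] [Fintype F] (m : ℕ) (hm : 4 ≤ m)
    (hF : Fintype.card F = 2 ^ m) {G : Type*} [Group G] [Finite G]
    (h : ((∀ r : ℕ, r.Prime → (r ∣ Nat.card (Matrix.ProjectiveSpecialLinearGroup (Fin 2) F) ↔ r ∣ Nat.card G)) ∧
      (∀ r s : ℕ, r.Prime → s.Prime → r ≠ s → ((∃ x : (Matrix.ProjectiveSpecialLinearGroup (Fin 2) F), orderOf x = r * s) ↔ (∃ y : G, orderOf y = r * s))))) :
    Nonempty (G ⧸ Cfsg.pCore 2 G ≃* Matrix.ProjectiveSpecialLinearGroup (Fin 2) F) := by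
  have : Fact (Nat.Prime 2) := ⟨Nat.prime_two⟩
  have := Fintype.ofFinite G
  obtain ⟨h1, h2⟩ := h
  have hm0 : 0 < 2 ^ m := by positivity
  have hc : CharP F 2 := by
    obtain ⟨p, hp⟩ := CharP.exists F
    obtain ⟨l, h3, h4⟩ := FiniteField.card F p
    rwa [← (Nat.prime_dvd_prime_iff_eq h3 Nat.prime_two).mp (h3.dvd_of_dvd_pow
      (by rw [← hF, h4]; exact dvd_pow_self _ l.ne_zero))]
  have hs := Spec.spec_psl2 (F := F) 2
  have o1 := odd_two_pow_sub_one (n := m) (by omega)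
  rw [hF, Nat.coprime_two_left.mpr (Nat.odd_iff.mpr (by omega)), Nat.div_one, Nat.div_one] at hs
  have adj : ∀ r s : ℕ, r.Prime → s.Prime → r ≠ s → (∃ y : G, orderOf y = r * s) →
      r * s ∣ 2 ^ m - 1 ∨ r * s ∣ 2 ^ m + 1 := by
    intro r s hr hs' hrs h3
    refine Or.resolve_left (hs.le ((h2 r s hr hs' hrs).mpr h3)) fun h4 => ?_
    have := Nat.le_of_dvd two_pos h4
    nlinarith [hr.two_le, hs'.two_le]
  have o2 : ¬ 2 ∣ 2 ^ m + 1 := by omega
  have no2 : ∀ s : ℕ, s.Prime → 2 ≠ s → ¬ ∃ y : G, orderOf y = 2 * s := fun s hs h3 h4 =>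
    (adj 2 s Nat.prime_two hs h3 h4).elim (fun h5 => o1 ((dvd_mul_right _ _).trans h5))
      (fun h5 => o2 ((dvd_mul_right _ _).trans h5))
  have hC : IsCIT G := by
    intro x hx
    by_contra h3
    obtain ⟨n, h4, h5⟩ := exists_prime_of_not_two h3
    exact no2 _ h4 h5.symm (Local.exists_orderOf_eq_of_dvd_orderOf
      (((Nat.coprime_primes Nat.prime_two h4).mpr h5.symm).mul_dvd_of_dvd_of_dvd hx
        (orderOf_pow_dvd n)))
  have card2 : ∀ (K : Type) [Field K] [Fintype K] (n : ℕ), Fintype.card K = 2 ^ n → n ≠ 0 ∧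
      Nat.card (Matrix.ProjectiveSpecialLinearGroup (Fin 2) K) = 2 ^ n * (2 ^ (2 * n) - 1) := by
    intro K _ _ n hK
    have h3 : n ≠ 0 := by rintro rfl; exact Fintype.one_lt_card.ne' hK
    have h4 := PSL2Rec.card_psl2 (F := K)
    have := odd_two_pow_sub_one h3
    rw [hK, Nat.coprime_two_left.mpr (Nat.odd_iff.mpr (by omega)), one_mul] at h4
    exact ⟨h3, by rw [h4, two_pow_two_mul, mul_assoc]⟩
  have cF : Nat.card (Matrix.ProjectiveSpecialLinearGroup (Fin 2) F) = 2 ^ m * (2 ^ (2 * m) - 1) := by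
    have h4 := PSL2Rec.card_psl2 (F := F)
    rw [hF, Nat.coprime_two_left.mpr (Nat.odd_iff.mpr (by omega)), one_mul] at h4
    rw [h4, two_pow_two_mul, mul_assoc]
  have odv : ∀ (p k t : ℕ), p.Prime → p ≠ 2 → (p ∣ 2 ^ k * t ↔ p ∣ t) := fun p k t hp hp2 =>
    ⟨fun h3 => (hp.dvd_mul.mp h3).resolve_left fun h4 => hp2
      ((Nat.prime_dvd_prime_iff_eq hp Nat.prime_two).mp (hp.dvd_of_dvd_pow h4)),
      fun h3 => h3.mul_left _⟩
  have pi : ∀ k t : ℕ, Nat.card G = 2 ^ k * t → ∀ p : ℕ, p.Prime → p ≠ 2 →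
      (p ∣ t ↔ p ∣ 2 ^ (2 * m) - 1) := fun k t hG p hp hp2 => by
    rw [← odv p k t hp hp2, ← hG, ← h1 p hp, cF, odv p _ _ hp hp2]
  obtain ⟨a, ha⟩ := (Local.isPGroup_pCore (G := G) 2).exists_card_eq
  obtain ⟨b, hb⟩ := oTwo_index (G := G)
  have cX : Nat.card G = 2 ^ a * Nat.card (G ⧸ pCore 2 G) := by
    rw [← ha]; exact (pCore 2 G).card_mul_index.symm
  have cY : Nat.card G = 2 ^ b * Nat.card (oTwo G) := by
    rw [← hb]; exact (oTwo G).index_mul_card.symm
  have he : 2 ∣ Nat.card G := (h1 2 Nat.prime_two).mp (cF ▸ (dvd_pow_self 2 (by omega)).mul_right _)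
  obtain ⟨p, hp, hp2, hpm⟩ := zsig2 (n := 2 * m) (by omega) (by omega)
  rcases hC.cases he with h3 | ⟨K, _, _, n, hK, ⟨e⟩⟩ | ⟨k, -, h3⟩ | ⟨-, ⟨S, x, y, n, d⟩ |
    ⟨V, W, R, q, hq, c, hR⟩⟩
  · obtain ⟨r, hr, h4⟩ := Nat.exists_prime_and_dvd (show 2 ^ m - 1 ≠ 1 by
      have := Nat.pow_le_pow_right two_pos hm; omega)
    obtain ⟨s, hs, h5⟩ := Nat.exists_prime_and_dvd (show 2 ^ m + 1 ≠ 1 by omega)
    have r2 : 2 ≠ r := by rintro rfl; exact o1 h4
    have s2 : 2 ≠ s := by rintro rfl; exact o2 h5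
    have key : ∀ t : ℕ, t.Prime → t ∣ 2 ^ m - 1 → t ∣ 2 ^ m + 1 → False := fun t ht h6 h7 => by
      have h8 := (Nat.dvd_add_right h6).mp (show t ∣ 2 ^ m - 1 + 2 by
        rwa [show 2 ^ m - 1 + 2 = 2 ^ m + 1 by omega])
      exact o1 ((Nat.prime_dvd_prime_iff_eq ht Nat.prime_two).mp h8 ▸ h6)
    have rs : r ≠ s := by rintro rfl; exact key r hr h4 h5
    refine (Local.not_dvd_card_of_three_coclique ⊤ inferInstance Nat.prime_two hr hs r2 s2 rs
      (no2 r hr r2) (no2 s hs s2) (fun h6 => (adj r s hr hs rs h6).elim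
        (fun h7 => key s hs ((dvd_mul_left _ _).trans h7) h5)
        (fun h7 => key r hr h4 ((dvd_mul_right _ _).trans h7)))
      (by rwa [Subgroup.card_top]) ?_ ?_).elim
    · rw [Subgroup.card_top, ← h1 r hr, cF, two_pow_two_mul]
      exact (h4.mul_right _).mul_left _
    · rw [← h1 s hs, cF, two_pow_two_mul]
      exact (h5.mul_left _).mul_left _
  · obtain ⟨n0, h4⟩ := card2 K n hK
    have h5 := pi (a + n) _ (by rw [cX, Nat.card_congr e.toEquiv, h4, pow_add, mul_assoc])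
    have h6 := Nat.le_of_dvd (by omega) ((hpm _).mp ((h5 p hp hp2).mpr ((hpm _).mpr dvd_rfl)))
    obtain ⟨s, hs, hs2, hsn⟩ := zsig2 (n := 2 * n) (by omega) (by omega)
    have h7 := Nat.le_of_dvd (by omega) ((hsn _).mp ((h5 s hs hs2).mp ((hsn _).mpr dvd_rfl)))
    obtain ⟨e'⟩ := psl_congr (n := Fin 2) (hK.trans (by rw [hF, show n = m by omega]))
    exact ⟨e.trans e'⟩
  · have h4 := (pi (a + (2 * k + 1) * 2) _ (by
      rw [cX, h3.card, pow_add 2 a, pow_mul 2 _ 2, mul_assoc, mul_assoc]) 3 Nat.prime_three (by norm_num)).mpr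
      (by rw [pow_mul]; exact Nat.sub_one_dvd_pow_sub_one 4 m)
    have h5 : 2 ^ (2 * k + 1) % 3 = 2 := by rw [pow_succ, pow_mul, Nat.mul_mod, Nat.pow_mod]; simp
    generalize 2 ^ (2 * k + 1) = q at h4 h5
    obtain ⟨j, rfl⟩ : ∃ j, q = 3 * j + 2 := ⟨q / 3, by omega⟩
    rcases Nat.prime_three.dvd_mul.mp h4 with h6 | h6
    · rw [show (3 * j + 2) ^ 2 + 1 = 3 * (3 * j ^ 2 + 4 * j + 1) + 2 by ring] at h6; omega
    · omega
  · have := Fintype.ofFinite (oTwo G)
    obtain ⟨q, r, c1, c2, -⟩ := d.psl2.{_, 0} (hC.subgroup _) oTwo_index_ne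
    have h5 := pi (b + (n + 3)) (r * q) (by rw [cY, c2]; ring)
    have h6 := hp.dvd_mul.mp ((h5 p hp hp2).mpr ((hpm _).mpr dvd_rfl))
    exfalso
    rcases c1 with ⟨rfl, e⟩ | ⟨e1, e2⟩
    · obtain rfl : r = 2 ^ (n + 2) + 1 := by rw [pow_succ] at e; omega
      have h7 : m ≤ n + 3 := by
        rcases h6 with h6 | h6 <;>
          have := Nat.le_of_dvd (by omega) ((hpm (2 * _)).mp (two_pow_two_mul _ ▸ h6.mul_left _)) <;>
          omega
      obtain ⟨s, hs, hs2, hsn⟩ := zsig2 (n := 2 * (n + 3)) (by omega) (by omega)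
      have h8 := (hs.dvd_mul.mp (two_pow_two_mul _ ▸ (hsn _).mpr dvd_rfl)).resolve_left fun h8 => by
        have := Nat.le_of_dvd (by omega) ((hsn _).mp h8); omega
      have h9 := Nat.le_of_dvd (by omega) ((hsn _).mp ((h5 s hs hs2).mp (h8.mul_left _)))
      obtain rfl : m = n + 3 := by omega
      obtain ⟨t, ht, ht3, h10⟩ := exists_prime_ne_three (n := n + 3) (by omega)
      have ht2 : t ≠ 2 := by rintro rfl; exact o1 h10
      rcases ht.dvd_mul.mp ((h5 t ht ht2).mpr (two_pow_two_mul _ ▸ h10.mul_right _)) with h11 | h11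
      · exact ht3 ((Nat.prime_dvd_prime_iff_eq ht Nat.prime_three).mp ((Nat.dvd_add_right h10).mp
          (by rw [show 2 ^ (n + 3) - 1 + 3 = 2 * (2 ^ (n + 2) + 1) by rw [pow_succ] at *; omega]
              exact h11.mul_left _)))
      · exact ht2 ((Nat.prime_dvd_prime_iff_eq ht Nat.prime_two).mp ((Nat.dvd_add_right h10).mp
          (by rwa [show 2 ^ (n + 3) - 1 + 2 = 2 ^ (n + 3) + 1 by omega])))
    · obtain rfl : q = 2 ^ (n + 3) - 1 := by omega
      obtain rfl : r = 2 ^ (n + 2) - 1 := by rw [pow_succ] at e2; omega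
      have h7 : 2 * m ≤ n + 3 := by
        rcases h6 with h6 | h6 <;> have := Nat.le_of_dvd (by omega) ((hpm _).mp h6) <;> omega
      obtain ⟨s, hs, hs2, hsn⟩ := zsig2 (n := n + 3) (by omega) (by omega)
      obtain ⟨t, ht, ht2, htn⟩ := zsig2 (n := n + 2) (by omega) (by omega)
      have h8 := Nat.le_of_dvd (by omega)
        ((hsn _).mp ((h5 s hs hs2).mp (((hsn _).mpr dvd_rfl).mul_left _)))
      have h9 := (htn _).mp ((h5 t ht ht2).mp (((htn _).mpr dvd_rfl).mul_right _))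
      rw [show 2 * m = n + 2 + 1 by omega, Nat.dvd_add_right dvd_rfl, Nat.dvd_one] at h9
      omega
  · have h0 := hC.subgroup (oTwo G)
    obtain ⟨n, hn⟩ := c.nV.par.isPGroup.exists_card_eq
    obtain ⟨n, -, rfl⟩ := (Nat.dvd_prime_pow Nat.prime_two).mp
      (show q ∣ 2 ^ n by rw [← hn, c.nV.cardV]; exact dvd_pow_self q two_ne_zero)
    have hn : 2 ≤ n := by
      by_contra h3
      have := Nat.pow_le_pow_right two_pos (show n ≤ 1 by omega)
      omega
    have h5 := pi (b + n * 3) _ (by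
      rw [cY, c.card_G h0 hR hq, pow_add, pow_mul, mul_assoc, mul_assoc])
    rw [← pow_mul'] at h5
    have h6 : 2 * m ≤ 3 * n := by
      rcases hp.dvd_mul.mp ((h5 p hp hp2).mpr ((hpm _).mpr dvd_rfl)) with h6 | h6
      · have := Nat.le_of_dvd (by omega) ((hpm _).mp h6); omega
      · exact Nat.le_of_dvd (by omega) ((hpm _).mp (by
          rw [two_pow_three_mul, ← pow_mul']; exact h6.mul_left _))
    obtain ⟨s, hs, hs2, hsn⟩ := zsig2 (n := 3 * n) (by omega) (by omega)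
    have h7 := (hs.dvd_mul.mp (two_pow_three_mul _ ▸ (hsn _).mpr dvd_rfl)).resolve_left fun h8 => by
      have := Nat.le_of_dvd (by omega) ((hsn _).mp h8); omega
    rw [← pow_mul'] at h7
    have h8 := Nat.le_of_dvd (by omega) ((hsn _).mp ((h5 s hs hs2).mp (h7.mul_left _)))
    obtain ⟨t, ht, ht2, htn⟩ := zsig2 (n := 2 * n) (by omega) (by omega)
    have h9 := (htn _).mp ((h5 t ht ht2).mp (((htn _).mpr dvd_rfl).mul_right _))
    rw [show 2 * m = 2 * n + n by omega, Nat.dvd_add_right dvd_rfl] at h9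
    have := Nat.le_of_dvd (by omega) h9
    omega

end Cfsg.Agent.S3700
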