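import Cfsg.Statements.S3704

set_option autoImplicit false
open Cfsg

namespace Cfsg.Agent.S3704

open MulAction

/-- Incidence matrix of the translates of an `H`-invariant set. -/
noncomputable def inc {G Ω : Type*} [Group G] [MulAction G Ω] (H : Subgroup G) (e : Ω ≃ G ⧸ H) (D : Set Ω) :
    Matrix Ω Ω ℚ := by
  classical
  exact fun x y => if (e y).out⁻¹ • x ∈ D then 1 else 0

theorem out_smul_mem {G Ω : Type*} [Group G] [MulAction G Ω] (H : Subgroup G) (a : Ω) (g : G) (q : G ⧸ H) (x : Ω) :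
    (g • q).out⁻¹ • g • x ∈ orbit H a ↔ q.out⁻¹ • x ∈ orbit H a := by
  obtain ⟨h, hh⟩ : ∃ h : H, (g • q).out = g * q.out * h := by
    have : (g • q) = ((g * q.out : G) : G ⧸ H) := by
      conv_lhs => rw [← q.out_eq']
      rfl
    rw [this]
    exact QuotientGroup.mk_out_eq_mul H _
  rw [hh, mul_inv_rev, mul_inv_rev, mul_smul, mul_smul, inv_smul_smul]
  constructor
  · rintro ⟨k, hk⟩
    refine ⟨h * k, ?_⟩
    have hk' : (k : G) • a = (h : G)⁻¹ • q.out⁻¹ • x := hk
    change ((h : G) * k) • a = _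
    rw [mul_smul, hk', smul_inv_smul]
  · rintro ⟨k, hk⟩
    refine ⟨h⁻¹ * k, ?_⟩
    have hk' : (k : G) • a = q.out⁻¹ • x := hk
    change ((h : G)⁻¹ * k) • a = _
    rw [mul_smul, hk']

theorem inc_mul {G Ω : Type*} [Group G] [MulAction G Ω] [Fintype Ω] [DecidableEq Ω]
    (h2 : MulAction.IsMultiplyPretransitive G Ω 2) (H : Subgroup G) (e : Ω ≃ G ⧸ H) (a b : Ω)
    (hab : Disjoint (orbit H a) (orbit H b)) :
    ∃ c : ℚ, c ≠ 0 ∧ inc H e (orbit H a) * (inc H e (orbit H b)).transpose =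
      c • (Matrix.of (fun _ _ => (1 : ℚ)) - 1) := by
  classical
  have hinv : ∀ (g : G) (x y : Ω), (inc H e (orbit H a) * (inc H e (orbit H b)).transpose) (g • x) (g • y) =
      (inc H e (orbit H a) * (inc H e (orbit H b)).transpose) x y := by
    intro g x y
    simp only [Matrix.mul_apply, Matrix.transpose_apply, inc]
    symm
    apply Fintype.sum_equiv (e.trans ((MulAction.toPerm g : Equiv.Perm (G ⧸ H)).trans e.symm))
    intro z
    simp only [Equiv.trans_apply, Equiv.apply_symm_apply, toPerm_apply, out_smul_mem]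
  have hne : a ≠ b := by
    rintro rfl
    exact Set.disjoint_left.mp hab (mem_orbit_self a) (mem_orbit_self a)
  refine ⟨(inc H e (orbit H a) * (inc H e (orbit H b)).transpose) a b, ?_, ?_⟩
  · apply ne_of_gt
    simp only [Matrix.mul_apply, Matrix.transpose_apply, inc]
    apply Finset.sum_pos'
    · intro z _; split_ifs <;> norm_num
    · refine ⟨e.symm ((1 : G) : G ⧸ H), Finset.mem_univ _, ?_⟩
      obtain ⟨h, hh⟩ := QuotientGroup.mk_out_eq_mul H (1 : G)
      have k1 : (h : G)⁻¹ • a ∈ orbit H a := ⟨h⁻¹, rfl⟩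
      have k2 : (h : G)⁻¹ • b ∈ orbit H b := ⟨h⁻¹, rfl⟩
      simp [hh, k1, k2]
  · ext x y
    by_cases hxy : x = y
    · subst hxy
      simp only [Matrix.mul_apply, Matrix.transpose_apply, inc, Matrix.smul_apply, Matrix.sub_apply,
        Matrix.of_apply, Matrix.one_apply_eq, sub_self, smul_zero]
      apply Finset.sum_eq_zero
      intro z _
      split_ifs with k1 k2
      · exact absurd k2 (Set.disjoint_left.mp hab k1)
      all_goals simp
    · obtain ⟨g, rfl, rfl⟩ := is_two_pretransitive_iff.mp h2 hne hxy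
      rw [hinv]
      simp [Matrix.one_apply_ne hxy]


/-- Let G be a finite group acting faithfully and 2-transitively on a finite set Ω of size n, and let H be a subgroup of index n in G which is not transitive on Ω and fixes no point of Ω. Then H has exactly two orbits on Ω. -/
theorem result {G Ω : Type*} [Group G] [Finite G] [MulAction G Ω] [FaithfulSMul G Ω] [Finite Ω] (h2 : MulAction.IsMultiplyPretransitive G Ω 2) (H : Subgroup G) (hidx : H.index = Nat.card Ω) (hnt : ¬ MulAction.IsPretransitive H Ω) (hfix : ∀ a : Ω, ∃ h : H, h • a ≠ a) : Nat.card (MulAction.orbitRel.Quotient H Ω) = 2 := by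
  classical
  have := Fintype.ofFinite Ω
  obtain ⟨e⟩ : Nonempty (Ω ≃ G ⧸ H) := by
    rw [← Finite.card_eq, ← hidx]; rfl
  rw [pretransitive_iff_subsingleton_quotient, not_subsingleton_iff_nontrivial] at hnt
  have h1 := Finite.one_lt_card (α := orbitRel.Quotient H Ω)
  by_contra hne
  have h3 : 2 < Nat.card (orbitRel.Quotient H Ω) := by omega
  have := Fintype.ofFinite (orbitRel.Quotient H Ω)
  rw [Nat.card_eq_fintype_card, Fintype.two_lt_card_iff] at h3
  obtain ⟨A, B, C, hAB, hAC, hBC⟩ := h3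
  induction A using Quotient.inductionOn with | _ a =>
  induction B using Quotient.inductionOn with | _ b =>
  induction C using Quotient.inductionOn with | _ c =>
  have hdisj : ∀ x y : Ω, (Quotient.mk _ x : orbitRel.Quotient H Ω) ≠ Quotient.mk _ y →
      Disjoint (orbit H x) (orbit H y) := by
    intro x y hxy
    rw [Set.disjoint_left]
    intro z h1 h2
    apply hxy
    exact (Quotient.sound (s := orbitRel H Ω) h1).symm.trans (Quotient.sound (s := orbitRel H Ω) h2)
  obtain ⟨u, hu, h4⟩ := inc_mul h2 H e a b (hdisj _ _ hAB)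
  obtain ⟨w, hw, h5⟩ := inc_mul h2 H e a c (hdisj _ _ hAC)
  have hn : (2 : ℚ) ≤ Fintype.card Ω := by
    have : 1 < Fintype.card Ω := Fintype.one_lt_card_iff.mpr ⟨a, b, fun h => hAB (by rw [h])⟩
    exact_mod_cast this
  have hinvJ : (Matrix.of (fun _ _ => (1 : ℚ)) - 1 : Matrix Ω Ω ℚ) *
      (((Fintype.card Ω : ℚ) - 1)⁻¹ • Matrix.of (fun _ _ => (1 : ℚ)) - 1) = 1 := by
    have hJ : (Matrix.of (fun _ _ => (1 : ℚ)) : Matrix Ω Ω ℚ) * Matrix.of (fun _ _ => (1 : ℚ)) =
        (Fintype.card Ω : ℚ) • Matrix.of (fun _ _ => (1 : ℚ)) := by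
      ext x y; simp [Matrix.mul_apply]
    have h0 : (Fintype.card Ω : ℚ) - 1 ≠ 0 := by linarith
    rw [sub_mul, mul_sub, Matrix.mul_smul, hJ, one_mul, mul_one, smul_smul]
    ext x y
    simp only [Matrix.sub_apply, Matrix.smul_apply, Matrix.of_apply, smul_eq_mul, mul_one]
    field_simp
    ring
  have hunit : IsUnit (inc H e (orbit H a)) := by
    apply IsUnit.of_mul_eq_one ((inc H e (orbit H b)).transpose *
      (u⁻¹ • (((Fintype.card Ω : ℚ) - 1)⁻¹ • Matrix.of (fun _ _ => (1 : ℚ)) - 1)))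
    rw [← mul_assoc, h4, Matrix.smul_mul, Matrix.mul_smul, hinvJ, smul_smul, mul_inv_cancel₀ hu, one_smul]
  have h6 : w • (inc H e (orbit H b)).transpose = u • (inc H e (orbit H c)).transpose := by
    apply hunit.mul_left_cancel
    rw [Matrix.mul_smul, Matrix.mul_smul, h4, h5, smul_smul, smul_smul, mul_comm]
  have h7 := congrFun (congrFun h6 (e.symm ((1 : G) : G ⧸ H))) b
  obtain ⟨h, hh⟩ := QuotientGroup.mk_out_eq_mul H (1 : G)
  have k2 : (h : G)⁻¹ • b ∈ orbit H b := ⟨h⁻¹, rfl⟩
  have k3 : (h : G)⁻¹ • b ∉ orbit H c := Set.disjoint_left.mp (hdisj _ _ hBC) k2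
  simp [inc, hh, k2, k3] at h7
  exact hw h7

end Cfsg.Agent.S3704
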