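import Cfsg.Statements.S3718
import Cfsg.Agent.FT.Final
import Cfsg.Agent.OneC.Main

set_option autoImplicit false
open Cfsg

namespace Cfsg.Agent.S3718

/-- Let G be a finite simple group whose set of element orders contains at most one composite number (at most one element order that is neither 1 nor a prime). Then G is cyclic of prime order, or isomorphic to PSL₂(q) for q ∈ {5, 7, 8, 9, 11, 13, 16}, to PSL₃(4), to the Suzuki group Sz(8), to PSL₂(3ⁿ) with (3ⁿ − 1)/2 and (3ⁿ + 1)/4 both prime, or to PSL₂(2ⁿ) with 2ⁿ − 1 and (2ⁿ + 1)/3 both prime. -/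
theorem result {G : Type*} [Group G] [Finite G] [IsSimpleGroup G]
    (h1 : {n : ℕ | n ∈ Set.range (orderOf : G → ℕ) ∧ 1 < n ∧ ¬ n.Prime}.Subsingleton) :
    (Nat.card G).Prime ∨
    (∃ (F : Type) (_ : Field F) (_ : Fintype F), (Fintype.card F = 5 ∨ Fintype.card F = 7 ∨ Fintype.card F = 8 ∨ Fintype.card F = 9 ∨
        Fintype.card F = 11 ∨ Fintype.card F = 13 ∨ Fintype.card F = 16) ∧ Nonempty (G ≃* Matrix.ProjectiveSpecialLinearGroup (Fin 2) F)) ∨
    (∃ (F : Type) (_ : Field F) (_ : Fintype F), Fintype.card F = 4 ∧ Nonempty (G ≃* Matrix.ProjectiveSpecialLinearGroup (Fin 3) F)) ∨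
    (∃ (F : Type) (_ : Field F) (_ : Fintype F), Fintype.card F = 8 ∧ Nonempty (G ≃* ↥(Cfsg.Lie.Sz F 4))) ∨
    (∃ (F : Type) (_ : Field F) (_ : Fintype F), ∃ n r s : ℕ, r.Prime ∧ s.Prime ∧ 3 ^ n - 1 = 2 * r ∧ 3 ^ n + 1 = 4 * s ∧
        Fintype.card F = 3 ^ n ∧ Nonempty (G ≃* Matrix.ProjectiveSpecialLinearGroup (Fin 2) F)) ∨
    (∃ (F : Type) (_ : Field F) (_ : Fintype F), ∃ n r : ℕ, (2 ^ n - 1).Prime ∧ r.Prime ∧ 2 ^ n + 1 = 3 * r ∧
        Fintype.card F = 2 ^ n ∧ Nonempty (G ≃* Matrix.ProjectiveSpecialLinearGroup (Fin 2) F)) := by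
  exact OneC.classify FT.oddOrder h1

end Cfsg.Agent.S3718
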