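import Cfsg.Statements.S3728
import Cfsg.Agent.SzSq.Hyp
import Cfsg.Agent.Three.Main

set_option autoImplicit false
open Cfsg

namespace Cfsg.Agent.S3728

/-- Let q = 2^(2m+1) with m ≥ 1 and let G be a finite group whose set of orders of maximal subgroups equals that of the Suzuki group Sz(q). Then G is isomorphic to Sz(q). -/
theorem result {G : Type*} [Group G] [Finite G] {F : Type*} [Field F] [Fintype F] (m : ℕ) (hm : 1 ≤ m)
    (hF : Fintype.card F = 2 ^ (2 * m + 1))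
    (h : {k : ℕ | ∃ M : Subgroup G, IsCoatom M ∧ k = Nat.card ↥M} = {k : ℕ | ∃ M : Subgroup ↥(Cfsg.Lie.Sz F (2 ^ (m + 1))), IsCoatom M ∧ k = Nat.card ↥M}) :
    Nonempty (G ≃* ↥(Cfsg.Lie.Sz F (2 ^ (m + 1)))) := by
  have hS : Suzuki.IsSz F m := ⟨hm, hF⟩
  have H : SzSq.SzHyp := fun X _ _ _ ⟨a, b, hab⟩ h3 =>
    Three.suz X (fun h => hab (h.is_comm.comm a b)) h3
  have e := Suzuki.szEquiv (m := m) F
  have key : ∀ {X Y : Type _} [Group X] [Group Y] (e : X ≃* Y) (k : ℕ),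
      (∃ M : Subgroup X, IsCoatom M ∧ k = Nat.card M) →
        ∃ M : Subgroup Y, IsCoatom M ∧ k = Nat.card M := fun e k ⟨M, h1, h2⟩ =>
    ⟨e.mapSubgroup M, (e.mapSubgroup.isCoatom_iff M).2 h1,
      h2.trans (Nat.card_congr (e.subgroupMap M).toEquiv)⟩
  exact Zass.SuzZ.equiv (SzSq.max_orders (F := F) H (h.trans (Set.ext fun k =>
    ⟨key e.symm k, key e k⟩))) F

end Cfsg.Agent.S3728
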